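import Cfsg.Agent.H18.Feit2

/-! Exceptional characters of a T.I. Frobenius kernel. -/

set_option autoImplicit false
set_option linter.unusedSectionVars false
open H17 Cfsg H15 CF H21
open scoped ComplexConjugate H16

namespace H18

variable {G : Type*} [Group G] [Finite G] {L K : Subgroup G} {ν : (G → ℂ) →ₗ[ℂ] (G → ℂ)}

theorem exc_nti (hK : K ≠ ⊥) (hTI : ∀ g, g ∉ 𝒩(K) → ∀ k ∈ K, g * k * g⁻¹ ∈ K → k = 1) :
    NormedTI ((K : Set G) \ {1}) ⊤ 𝒩(K) := by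
  refine ⟨?_, le_top, fun a ha g _ => ⟨fun h => by_contra fun n => ha.2 (hTI g n a ha.1 h.1),
    fun h => ⟨(Subgroup.mem_normalizer_iff.1 h a).1 ha.1, fun e => ha.2 ?_⟩⟩⟩
  · obtain ⟨x, hx⟩ := (Subgroup.ne_bot_iff_exists_ne_one).1 hK
    exact ⟨x, x.2, fun e => hx (Subtype.ext e)⟩
  · simpa using e

theorem exc_const_of_orth {φ : G → ℂ} (hφ : φ ∈ cf L)
    (h : ∀ γ ∈ Submodule.span ℂ (IrrD L K ⊥ : Set (G → ℂ)), γ 1 = 0 → dot L φ γ = 0)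
    {a b : G} (ha : a ∈ K) (hb : b ∈ K) (a1 : a ≠ 1) (b1 : b ≠ 1) : φ a = φ b := by
  classical
  have z : ∀ χ ∈ Irr L, χ ∉ IrrD L K ⊥ → χ a - χ b = 0 := fun χ hχ hn => by
    have k : K ≤ cfker χ := by_contra fun e => hn (mem_IrrD_bot.2 ⟨hχ, e⟩)
    rw [cfker_apply (k ha), cfker_apply (k hb), sub_self]
  have e : ∑ χ ∈ IrrD L K ⊥, conj (χ a - χ b) • χ = ∑ χ ∈ Irr L, conj (χ a - χ b) • χ :=
    Finset.sum_subset (IrrD_subset _ _ _) fun χ hχ hn => by rw [z χ hχ hn]; simp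
  have := h (∑ χ ∈ IrrD L K ⊥, conj (χ a - χ b) • χ)
    (Submodule.sum_mem _ fun χ hχ => Submodule.smul_mem _ _ (Submodule.subset_span hχ)) (by
      rw [e, Finset.sum_apply]
      have h1 := congrArg conj (CF.sum_irr_one_mul L a1)
      have h2 := congrArg conj (CF.sum_irr_one_mul L b1)
      rw [map_sum, map_zero] at h1 h2
      rw [← sub_self (0 : ℂ)]
      nth_rewrite 1 [← h1]
      rw [← h2, ← Finset.sum_sub_distrib]
      refine Finset.sum_congr rfl fun χ hχ => ?_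
      simp only [Pi.smul_apply, smul_eq_mul, map_mul, map_sub, (irr_char hχ).conj_one]
      ring)
  rw [e, dot_sum_right] at this
  rw [← sub_eq_zero, cf_apply_eq_sum hφ a, cf_apply_eq_sum hφ b, ← Finset.sum_sub_distrib, ← this]
  refine Finset.sum_congr rfl fun χ _ => ?_
  rw [dot_smul_right, Complex.conj_conj]
  ring

theorem exc_int_of_const {φ l : G → ℂ} (hφ : φ ∈ vchar K) (hl : IsLin K l) (h1 : l ≠ one K)
    {d : ℂ} (h : ∀ k ∈ K, k ≠ 1 → φ k = d) : ∃ n : ℤ, d = n := by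
  obtain ⟨n, hn⟩ := vchar_dot_int (sub_mem (one_mem_vchar K) hl.vchar) hφ
  have s : one K - l ∈ supp ((K : Set G) \ {1}) := mem_supp_diff_one.2
    ⟨cf_le_supp K (sub_mem (one_mem_cf K) hl.cf), by simp [hl.one_apply, one_of_mem K.one_mem]⟩
  rw [dot_congr_supp s (ψ' := d • one K) (fun x hx => by
    simp [h x hx.1 hx.2, one_of_mem (H := K) hx.1]), dot_smul_right, dot_sub_left,
    dot_irr_self (one_mem_Irr K), dot_irr_ne hl.mem_Irr (one_mem_Irr K) h1] at hn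
  refine ⟨n, ?_⟩
  have := congrArg conj hn
  simpa using this

theorem exc_dot (hν : CohWith L (IrrD L K ⊥) (Ind ⊤ L) ν) {γ ψ : G → ℂ}
    (hγ : γ ∈ Submodule.span ℂ (IrrD L K ⊥ : Set (G → ℂ))) (h1 : γ 1 = 0)
    (hψ : ψ ∈ cf (⊤ : Subgroup G)) : dot ⊤ ψ (ν γ) = dot L ψ γ := by
  rw [hν.eq_span (irr_one_int (IrrD_subset _ _ _)) hγ h1, dot_Ind_right le_top _ hψ]

theorem exc_const (hν : CohWith L (IrrD L K ⊥) (Ind ⊤ L) ν) (hKL : K ≤ L) {χ : G → ℂ}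
    (hχ : χ ∈ IrrD L K ⊥) {a b : G} (ha : a ∈ K) (hb : b ∈ K) (a1 : a ≠ 1) (b1 : b ≠ 1) :
    ν χ a - χ a = ν χ b - χ b := by
  have c := vchar_cf (hν.vchar hχ)
  have := exc_const_of_orth (K := K) (sub_mem (Res_mem_cf le_top c) (irr_cf (IrrD_irr hχ)))
    (fun γ hγ h1 => by
      rw [dot_sub_left, dot_Res_left_of_le le_rfl, ← exc_dot hν hγ h1 c,
        hν.dot_span (Submodule.subset_span hχ) hγ, sub_self]) ha hb a1 b1
  simpa [Res_of_mem _ (hKL ha), Res_of_mem _ (hKL hb)] using this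

theorem exc_pair {χ ξ : G → ℂ} (hχ : χ ∈ IrrD L K ⊥) (hξ : ξ ∈ IrrD L K ⊥) :
    ξ 1 • χ - χ 1 • ξ ∈ Z (IrrD L K ⊥ : Set (G → ℂ)) ∧ (ξ 1 • χ - χ 1 • ξ) 1 = 0 :=
  ⟨sub_mem (smul_mem_of_int (mem_Z_of_mem' hχ) (irr_one_int (IrrD_subset _ _ _) ξ hξ))
    (smul_mem_of_int (mem_Z_of_mem' hξ) (irr_one_int (IrrD_subset _ _ _) χ hχ)), by
    simp [mul_comm]⟩

theorem exc_on (hF : FT.FrobK L K) {α : G → ℂ} (hα : α ∈ Z (IrrD L K ⊥ : Set (G → ℂ)))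
    (h1 : α 1 = 0) : α ∈ cfOn L ((K : Set G) \ {1}) := by
  rw [← frobK_seqInd_eq hF le_rfl hF.norm] at hα
  exact Z_seqIndD_on_sharp hF.leK hF.norm hα h1

theorem exc_iff (hF : FT.FrobK L K) (hν : CohWith L (IrrD L K ⊥) (Ind ⊤ L) ν)
    (h2 : ∃ χ ∈ IrrD L K ⊥, ∃ ξ ∈ IrrD L K ⊥, χ ≠ ξ) {ψ : G → ℂ} (hψ : ψ ∈ Irr (⊤ : Subgroup G)) :
    (∃ χ ∈ IrrD L K ⊥, ψ = ν χ ∨ ψ = -ν χ) ↔ ∃ a ∈ K, ∃ b ∈ K, a ≠ 1 ∧ b ≠ 1 ∧ ψ a ≠ ψ b := by
  refine ⟨fun ⟨χ, hχ, e⟩ => by_contra fun hn => ?_, fun ⟨a, ha, b, hb, a1, b1, n⟩ =>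
    by_contra fun hn => n ?_⟩
  · push Not at hn
    obtain ⟨ξ, hξ, n⟩ : ∃ ξ ∈ IrrD L K ⊥, ξ ≠ χ := by
      obtain ⟨x, hx, y, hy, n⟩ := h2
      by_cases e : x = χ
      · exact ⟨y, hy, fun e' => n (e.trans e'.symm)⟩
      · exact ⟨x, hx, e⟩
    obtain ⟨p1, p2⟩ := exc_pair hχ hξ
    obtain ⟨a, ha⟩ := (Subgroup.ne_bot_iff_exists_ne_one).1 hF.neK
    have a1 : (a : G) ≠ 1 := fun e => ha (Subtype.ext e)
    have d := exc_dot hν (Z_le_span p1) p2 (irr_cf hψ)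
    have d0 : dot L ψ (ξ 1 • χ - χ 1 • ξ) = 0 := by
      apply dot_symm_zero
      rw [dot_congr_supp (mem_cfOn.1 (exc_on hF p1 p2)).2 (ψ' := ψ a • one L) (fun x hx => by
        simp [hn x hx.1 a a.2 hx.2 a1, one_of_mem (H := L) (hF.leK hx.1)]), dot_smul_right,
        dot_sub_left, dot_smul_left, dot_smul_left,
        dot_irr_ne (IrrD_irr hχ) (one_mem_Irr L) (IrrD_ne_one hF.leK hχ),
        dot_irr_ne (IrrD_irr hξ) (one_mem_Irr L) (IrrD_ne_one hF.leK hξ)]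
      simp
    have d1 : dot ⊤ (ν χ) (ν (ξ 1 • χ - χ 1 • ξ)) = ξ 1 := by
      rw [hν.dot_Z (mem_Z_of_mem' hχ) p1, dot_sub_right, dot_smul_right, dot_smul_right,
        dot_irr_self (IrrD_irr hχ), dot_irr_ne (IrrD_irr hχ) (IrrD_irr hξ) n.symm,
        (irr_char (IrrD_irr hξ)).conj_one]
      ring
    apply irr_one_ne (IrrD_irr hξ)
    rw [d0] at d
    rcases e with e | e
    · rw [← d1, ← e, d]
    · rw [e, dot_neg_left, d1] at d
      simpa using d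
  · push Not at hn
    have o : ∀ γ ∈ Submodule.span ℂ (IrrD L K ⊥ : Set (G → ℂ)), dot ⊤ ψ (ν γ) = 0 := by
      intro γ hγ
      induction hγ using Submodule.span_induction with
      | mem x hx =>
        exact dot_dirr_of_ne (irr_dirr hψ) (hν.dirr hx (IrrD_irr hx)) (hn x hx).1 (hn x hx).2
      | zero => simp
      | add x y _ _ hx hy => rw [map_add, dot_add_right, hx, hy, add_zero]
      | smul c x _ hx => rw [map_smul, dot_smul_right, hx, mul_zero]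
    have := exc_const_of_orth (K := K) (Res_mem_cf (H := L) le_top (irr_cf hψ))
      (fun γ hγ h1 => by
        rw [dot_Res_left_of_le le_rfl, ← exc_dot hν hγ h1 (irr_cf hψ), o γ hγ]) ha hb a1 b1
    simpa [Res_of_mem _ (hF.leK ha), Res_of_mem _ (hF.leK hb)] using this

theorem exc_int (hF : FT.FrobK L K) (ti : NormedTI ((K : Set G) \ {1}) ⊤ L)
    (hν : CohWith L (IrrD L K ⊥) (Ind ⊤ L) ν) :
    ∃ m : ℤ, ∀ χ ∈ IrrD L K ⊥, ∀ k ∈ K, k ≠ 1 →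
      ν χ k - χ k = m * χ 1 / (K.relIndex L : ℂ) := by
  have hn := frobK_nil hF
  obtain ⟨l, hl, -, h3⟩ := exists_lin_not_le (H := K) (N := ⁅K, K⁆) le_rfl (H16.der_le K)
    (not_le_der_of_sol inferInstance hF.neK)
  have l1 : l ≠ one K := fun e => h3 (by rw [e, cfker_one])
  have hη : Ind L K l ∈ IrrD L K ⊥ := by
    rw [← frobK_seqInd_eq hF le_rfl hF.norm]
    exact Ind_mem_seqIndC1 hl.mem_Irr l1
  have η1 : Ind L K l 1 = K.relIndex L := by rw [Ind_one hF.leK, hl.one_apply, mul_one]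
  set η := Ind L K l
  obtain ⟨a, ha⟩ := (Subgroup.ne_bot_iff_exists_ne_one).1 hF.neK
  have a1 : (a : G) ≠ 1 := fun e => ha (Subtype.ext e)
  obtain ⟨m, hm⟩ := exc_int_of_const (d := ν η a - η a) (sub_mem (Res_mem_vchar le_top (hν.vchar hη))
    (Res_mem_vchar hF.leK (irr_vchar (IrrD_irr hη)))) hl l1 fun k hk k1 => by
      simpa [Res_of_mem _ hk] using exc_const hν hF.leK hη hk a.2 k1 a1
  refine ⟨m, fun χ hχ k hk k1 => ?_⟩
  obtain ⟨p1, p2⟩ := exc_pair hχ hη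
  have e := ti.Ind_id (exc_on hF p1 p2) (a := k) ⟨hk, k1⟩
  rw [← hν.eq _ p1 p2, map_sub, map_smul, map_smul] at e
  have e2 := exc_const hν hF.leK hη hk a.2 k1 a1
  rw [hm] at e2
  simp only [Pi.sub_apply, Pi.smul_apply, smul_eq_mul, η1] at e
  rw [eq_div_iff (relIndex_ne K L)]
  linear_combination e + χ 1 * e2

theorem exc_base (hF : FT.FrobK L K) (ti : NormedTI ((K : Set G) \ {1}) ⊤ L)
    (hab : IsMulCommutative K) {ι : Type*} (s : ι → G → ℂ) (hs : ∀ i, s i ∈ IrrD L K ⊥)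
    (inj : Function.Injective s) :
    ∃ ε : ℤ, (ε = 1 ∨ ε = -1) ∧ ∃ μ : ι → G → ℂ, (∀ i, μ i ∈ Irr ⊤) ∧ Function.Injective μ ∧
      ∀ i j, Ind ⊤ L (s i - s j) = (ε : ℂ) • (μ i - μ j) := by
  rcases isEmpty_or_nonempty ι with h | ⟨⟨i₀⟩⟩
  · exact ⟨1, Or.inl rfl, s, fun i => h.elim i, inj, fun i => h.elim i⟩
  have eS := frobK_seqInd_eq hF le_rfl hF.norm
  have dg : ∀ i, s i 1 = K.relIndex L := fun i => by
    obtain ⟨θ, hθ, -, e⟩ := mem_seqIndC1.1 (eS ▸ hs i)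
    rw [← e, Ind_one hF.leK, irr_one_of_comm hab hθ, mul_one]
  have iso : Iso1 L (IrrD L K ⊥) (Ind ⊤ L) := NormedTI.iso1 ti (eS ▸ seqIndD_subT K L K ⊥)
  have z : ∀ i, s i - s i₀ ∈ Z (IrrD L K ⊥ : Set (G → ℂ)) := fun i =>
    sub_mem (mem_Z_of_mem' (hs i)) (mem_Z_of_mem' (hs i₀))
  have z1 : ∀ i, (s i - s i₀) 1 = 0 := fun i => by simp [dg]
  have ne : ∀ i j, i ≠ j → dot L (s i) (s j) = 0 := fun i j n =>
    dot_irr_ne (IrrD_irr (hs i)) (IrrD_irr (hs j)) fun e => n (inj e)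
  have sf : ∀ i, dot L (s i) (s i) = 1 := fun i => dot_irr_self (IrrD_irr (hs i))
  obtain ⟨ε, hε, μ, h1, h2, h3⟩ := vchar_isometry_base (L := ⊤) i₀ (fun i => Ind ⊤ L (s i - s i₀))
    (by simp) (fun i => iso.vchar _ (z i) (z1 i)) (fun i => iso.one _ (z i) (z1 i))
    (fun i n => by
      rw [iso.dot _ (z i) (z1 i) _ (z i) (z1 i), dot_sub_left, dot_sub_right, dot_sub_right,
        sf, sf, ne _ _ n, ne _ _ n.symm]; norm_num)
    (fun i j n n' m => by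
      rw [iso.dot _ (z i) (z1 i) _ (z j) (z1 j), dot_sub_left, dot_sub_right, dot_sub_right,
        sf, ne _ _ n, ne _ _ m, ne _ _ n'.symm]; norm_num)
  refine ⟨ε, hε, μ, h1, h2, fun i j => ?_⟩
  have : s i - s j = (s i - s i₀) - (s j - s i₀) := by abel
  rw [this, map_sub, h3, h3, ← smul_sub]
  congr 1; abel

end H18
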