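import Cfsg.Agent.H18.LX1
import Cfsg.Agent.H18.Cox
/-! Large extraspecial 2-subgroups, part 2: a pair of orthogonal conjugates. -/
set_option autoImplicit false
namespace H18
open Cfsg Subgroup H13
open scoped Pointwise commutatorElement

variable {G : Type*} [Group G]

theorem lx_relIndex (H : Subgroup G) (x : G) :
    (Cz x).relIndex H = {y | ∃ h ∈ H, h * x * h⁻¹ = y}.ncard := by
  let _ : MulAction H G := MulAction.compHom G (MulAut.conj.comp H.subtype)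
  have h1 : MulAction.stabilizer H x = (centralizer {x}).subgroupOf H := by
    ext h
    rw [MulAction.mem_stabilizer_iff, mem_subgroupOf, mem_centralizer_singleton_iff]
    exact mul_inv_eq_iff_eq_mul
  rw [relIndex, ← h1, MulAction.index_stabilizer]
  congr 1
  ext y
  exact ⟨fun ⟨h, e⟩ => ⟨h, h.2, e⟩, fun ⟨h, hh, e⟩ => ⟨⟨h, hh⟩, e⟩⟩

structure LP (z s : G) (Q S : Subgroup G) (w : ℕ) : Prop where
  h : XS z Q w
  h' : XS s S w
  ne : s ≠ z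
  sQ : s ∈ Q
  zS : z ∈ S
  tri : ∀ x ∈ S, ∀ y ∈ Q, x * z * x⁻¹ = z * s → y * s * y⁻¹ = s * z →
    MulAut.conj x • Q = MulAut.conj y • S

theorem lp_of [Finite G] {z g : G} {Q : Subgroup G} {w : ℕ} (h : XS z Q w) (hs : g * z * g⁻¹ ∈ Q)
    (hne : g * z * g⁻¹ ≠ z) : LP z (g * z * g⁻¹) Q (MulAut.conj g • Q) w :=
  ⟨h, h.smul g, hne, hs, LX.sym h hs, fun x _ y _ ex ey => by
    rw [← mul_smul, ← map_mul]
    refine LX.smul_eq_of h ?_
    rw [ex, ← h.comm hs, ← ey]; group⟩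

/-- the four-group -/
abbrev lxV (z s : G) : Subgroup G := Subgroup.closure {z, s}
/-- the subgroup `R` -/
abbrev lxR (z s : G) (Q S : Subgroup G) : Subgroup G := (S ⊓ Cz z) ⊔ (Q ⊓ Cz s)

theorem lxV_comm (z s : G) : lxV s z = lxV z s := by rw [lxV, Set.pair_comm]
theorem lxR_comm (z s : G) (Q S : Subgroup G) : lxR s z S Q = lxR z s Q S := sup_comm _ _
theorem cent_lxV (z s : G) : centralizer (lxV z s : Set G) = Cz z ⊓ Cz s := by
  rw [centralizer_closure]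
  ext c
  simp only [mem_centralizer_iff, Set.mem_insert_iff, Set.mem_singleton_iff, forall_eq_or_imp,
    forall_eq, mem_inf]

namespace LP
variable {z s : G} {Q S : Subgroup G} {w : ℕ} (p : LP z s Q S w)
include p

theorem symm : LP s z S Q w :=
  ⟨p.h', p.h, p.ne.symm, p.zS, p.sQ, fun y hy x hx ey ex => (p.tri x hx y hy ex ey).symm⟩
theorem cm : s * z = z * s := p.h.comm p.sQ
theorem exists_y : ∃ y ∈ Q, y * s * y⁻¹ = s * z := p.h.exists_nc p.sQ p.h'.z_ne p.ne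
theorem exists_x : ∃ x ∈ S, x * z * x⁻¹ = z * s := p.symm.exists_y
theorem sz_ne_one : s * z ≠ 1 := fun e => p.ne (by
  rw [← p.h.z_inv]; exact eq_inv_of_mul_eq_one_left e)
theorem sz_ne_z : s * z ≠ z := fun e => p.h'.z_ne (mul_eq_right.1 e)
theorem C_le_NQ : Cz z ⊓ Cz s ≤ normalizer (Q : Set G) := inf_le_left.trans p.h.le_norm
theorem C_le_NS : Cz z ⊓ Cz s ≤ normalizer (S : Set G) := inf_le_right.trans p.h'.le_norm
theorem R_le_C : lxR z s Q S ≤ Cz z ⊓ Cz s :=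
  sup_le (le_inf inf_le_right (inf_le_left.trans p.h'.le))
    (le_inf (inf_le_left.trans p.h.le) inf_le_right)
theorem C_le_NP : Cz z ⊓ Cz s ≤ normalizer ((Q ⊓ Cz s : Subgroup G) : Set G) :=
  H1.le_normalizer_inf p.C_le_NQ (inf_le_right.trans le_normalizer)
theorem C_le_NR : Cz z ⊓ Cz s ≤ normalizer (lxR z s Q S : Set G) :=
  H1.le_normalizer_sup (inf_comm (Cz z) (Cz s) ▸ p.symm.C_le_NP) p.C_le_NP
theorem C_le_NX : Cz z ⊓ Cz s ≤ normalizer ((Q ⊔ S : Subgroup G) : Set G) :=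
  H1.le_normalizer_sup p.C_le_NQ p.C_le_NS
theorem mem_R {r : G} : r ∈ lxR z s Q S ↔ ∃ a ∈ S ⊓ Cz z, ∃ b ∈ Q ⊓ Cz s, a * b = r :=
  H1.mem_sup_of_le_normalizer_right
    ((le_inf inf_le_right (inf_le_left.trans p.h'.le)).trans p.C_le_NP)
theorem R_le_X : lxR z s Q S ≤ Q ⊔ S :=
  sup_le (inf_le_left.trans le_sup_right) (inf_le_left.trans le_sup_left)
theorem inv_y {y : G} (hy : y ∈ Q) (ey : y * s * y⁻¹ = s * z) : y⁻¹ * s * y = s * z := by
  calc y⁻¹ * s * y = y⁻¹ * (s * z * (y * z * y⁻¹)) * y := by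
        rw [mem_Cz'.1 (p.h.le hy), mul_assoc s, p.h.zz, mul_one]
    _ = y⁻¹ * (y * s * y⁻¹ * (y * z * y⁻¹)) * y := by rw [ey]
    _ = _ := by group

variable [Finite G]

theorem V_eq : lxV z s = p.h.K4 p.sQ := by
  refine le_antisymm ((closure_le _).2 ?_) ?_
  · rintro _ (rfl | rfl)
    exacts [Or.inr (Or.inl rfl), Or.inr (Or.inr (Or.inl rfl))]
  · have a : z ∈ lxV z s := subset_closure (by simp)
    have b : s ∈ lxV z s := subset_closure (by simp)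
    rintro _ (rfl | rfl | rfl | rfl)
    exacts [one_mem _, a, b, mul_mem b a]
theorem mem_V {v : G} : v ∈ lxV z s ↔ v = 1 ∨ v = z ∨ v = s ∨ v = s * z := by
  rw [p.V_eq]; rfl
theorem V_le_Q : lxV z s ≤ Q := p.V_eq ▸ p.h.K4_le p.sQ
theorem V_le_S : lxV z s ≤ S := lxV_comm z s ▸ p.symm.V_le_Q
theorem z_mem_V : z ∈ lxV z s := subset_closure (by simp)
theorem s_mem_V : s ∈ lxV z s := subset_closure (by simp)

theorem Q_le_NV : Q ≤ normalizer (lxV z s : Set G) := fun y hy => by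
  refine mem_normalizer_fintype fun v hv => ?_
  rcases p.h.conj hy (p.V_le_Q hv) with a | a <;> rw [a]
  exacts [hv, mul_mem hv p.z_mem_V]
theorem S_le_NV : S ≤ normalizer (lxV z s : Set G) := lxV_comm z s ▸ p.symm.Q_le_NV
theorem X_le_NV : Q ⊔ S ≤ normalizer (lxV z s : Set G) := sup_le p.Q_le_NV p.S_le_NV
theorem C_le_NV : Cz z ⊓ Cz s ≤ normalizer (lxV z s : Set G) :=
  cent_lxV z s ▸ centralizer_le_normalizer _
theorem NV_le_NC : normalizer (lxV z s : Set G) ≤ normalizer ((Cz z ⊓ Cz s : Subgroup G) : Set G) :=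
  cent_lxV z s ▸ H1.normalizer_le_normalizer_centralizer _

theorem Q_le_NR : Q ≤ normalizer (lxR z s Q S : Set G) := fun y hy => by
  refine mem_normalizer_fintype fun r hr => ?_
  obtain ⟨a, ha, b, hb, rfl⟩ := p.mem_R.1 hr
  have hN := p.NV_le_NC (p.Q_le_NV hy)
  have h1 := H1.conj_mem_of_mem_normalizer hN (mem_inf.2 ⟨ha.2, p.h'.le ha.1⟩)
  have h2 := H1.conj_mem_of_mem_normalizer hN (mem_inf.2 ⟨p.h.le hb.1, hb.2⟩)
  refine p.mem_R.2 ⟨a, ha, a⁻¹ * (y * a * y⁻¹) * (y * b * y⁻¹), mem_inf.2 ⟨mul_mem ?_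
    (mul_mem (mul_mem hy hb.1) (inv_mem hy)),
    mul_mem (mul_mem (inv_mem (p.h'.le ha.1)) h1.2) h2.2⟩, by group⟩
  simpa [mul_assoc] using mul_mem (p.h.nrm' ha.2 hy) (inv_mem hy)
theorem X_le_NR : Q ⊔ S ≤ normalizer (lxR z s Q S : Set G) :=
  sup_le p.Q_le_NR (lxR_comm z s Q S ▸ p.symm.Q_le_NR)

theorem rel6 {H : Subgroup G} (h1 : Q ⊔ S ≤ H) (h2 : H ≤ normalizer (lxV z s : Set G)) :
    (Cz z ⊓ Cz s).relIndex H = 6 := by
  obtain ⟨y, hy, ey⟩ := p.exists_y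
  obtain ⟨x, hx, ex⟩ := p.exists_x
  have hyH := h1 (mem_sup_left hy)
  have hxH := h1 (mem_sup_right hx)
  have a : (Cz z).relIndex H = 3 := by
    rw [lx_relIndex, Set.ncard_eq_three]
    refine ⟨z, s, s * z, p.ne.symm, p.sz_ne_z.symm, (p.h.ne_mul s).symm, Set.ext fun v => ⟨?_, ?_⟩⟩
    · rintro ⟨k, hk, rfl⟩
      rcases p.mem_V.1 (H1.conj_mem_of_mem_normalizer (h2 hk) p.z_mem_V) with a | a
      · exact absurd (by simpa using a) p.h.z_ne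
      · exact a
    · rintro (rfl | rfl | rfl)
      · exact ⟨1, one_mem _, by group⟩
      · exact ⟨_, mul_mem (mul_mem hxH hyH) hxH, (LX.swap p.h p.h'.zz p.sQ hy (p.h'.le hx) ex ey).1⟩
      · exact ⟨x, hxH, ex.trans p.cm.symm⟩
  have b : (Cz s).relIndex (Cz z ⊓ H) = 2 := by
    rw [lx_relIndex, Set.ncard_eq_two]
    refine ⟨s, s * z, (p.h.ne_mul s).symm, Set.ext fun v => ⟨?_, ?_⟩⟩
    · rintro ⟨k, hk, rfl⟩
      rcases p.mem_V.1 (H1.conj_mem_of_mem_normalizer (h2 hk.2) p.s_mem_V) with a | a | a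
      · exact absurd (by simpa using a) p.h'.z_ne
      · rw [← mem_Cz'.1 hk.1] at a
        exact absurd (by simpa using a) p.ne
      · exact a
    · rintro (rfl | rfl)
      · exact ⟨1, one_mem _, by group⟩
      · exact ⟨y, ⟨p.h.le hy, hyH⟩, ey⟩
  rw [inf_comm, ← relIndex_inf_mul_relIndex, a, b]

theorem sq_mem_R {y : G} (hy : y ∈ Q) : y * y ∈ lxR z s Q S := mem_sup_right (by
  rcases p.h.sq hy with a | a <;> rw [a]
  exacts [one_mem _, mem_inf.2 ⟨p.h.zm, mem_Cz.2 p.cm.symm⟩])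

theorem mem_or {y u : G} (hy : y ∈ Q) (ey : y * s * y⁻¹ = s * z) (hu : u ∈ Q) :
    u ∈ lxR z s Q S ∨ y⁻¹ * u ∈ lxR z s Q S := by
  rcases p.h.conj hu p.sQ with a | a
  · exact Or.inl (mem_sup_right (mem_inf.2 ⟨hu, mem_Cz'.2 a⟩))
  · refine Or.inr (mem_sup_right (mem_inf.2 ⟨mul_mem (inv_mem hy) hu, mem_Cz'.2 ?_⟩))
    calc y⁻¹ * u * s * (y⁻¹ * u)⁻¹ = y⁻¹ * (u * s * u⁻¹) * y := by group
      _ = s := by rw [a, ← ey]; group

theorem s3 : ∃ _ : ((lxR z s Q S).subgroupOf (Q ⊔ S)).Normal,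
    Nonempty (↥(Q ⊔ S) ⧸ (lxR z s Q S).subgroupOf (Q ⊔ S) ≃* Equiv.Perm (Fin 3)) := by
  have hn : ((lxR z s Q S).subgroupOf (Q ⊔ S)).Normal :=
    normal_subgroupOf_of_le_normalizer p.X_le_NR
  refine ⟨hn, ?_⟩
  obtain ⟨y, hy, ey⟩ := p.exists_y
  obtain ⟨x, hx, ex⟩ := p.exists_x
  let π := QuotientGroup.mk' ((lxR z s Q S).subgroupOf (Q ⊔ S))
  have hπ : ∀ u : ↥(Q ⊔ S), π u = 1 ↔ (u : G) ∈ lxR z s Q S := fun u => QuotientGroup.eq_one_iff u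
  let x' : ↥(Q ⊔ S) := ⟨x, mem_sup_right hx⟩
  let y' : ↥(Q ⊔ S) := ⟨y, mem_sup_left hy⟩
  have hxx : π x' * π x' = 1 := by
    rw [← map_mul, hπ, ← lxR_comm]; exact p.symm.sq_mem_R hx
  have hyy : π y' * π y' = 1 := by rw [← map_mul, hπ]; exact p.sq_mem_R hy
  have hbr : π (x'⁻¹ * (y'⁻¹ * (x' * y' * x'⁻¹) * y')) = 1 := by
    rw [hπ]
    have a : y⁻¹ * (x * y * x⁻¹) * y ∈ S := by
      rw [← H1.mem_conj_smul_iff, ← p.tri x hx y hy ex ey]; exact H1.conj_mem_conj_smul hy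
    refine mem_sup_left (mem_inf.2 ⟨mul_mem (inv_mem hx) a, mem_Cz'.2 ?_⟩)
    have b := p.inv_y hy ey
    have c := p.symm.inv_y hx ex
    have d := mem_Cz'.1 (p.h.le hy)
    have e := mem_Cz'.1 (p.h'.le hx)
    show x⁻¹ * (y⁻¹ * (x * y * x⁻¹) * y) * z * (x⁻¹ * (y⁻¹ * (x * y * x⁻¹) * y))⁻¹ = z
    calc _ = x⁻¹ * y⁻¹ * x * y * (x⁻¹ * (y * z * y⁻¹) * x) * y⁻¹ * x⁻¹ * y * x := by group
      _ = x⁻¹ * y⁻¹ * x * y * (z * s) * y⁻¹ * x⁻¹ * y * x := by rw [d, c]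
      _ = x⁻¹ * y⁻¹ * x * ((y * z * y⁻¹) * (y * s * y⁻¹)) * x⁻¹ * y * x := by group
      _ = x⁻¹ * (y⁻¹ * (x * s * x⁻¹) * y) * x := by
        rw [d, ey, p.cm, ← mul_assoc z z, p.h.zz]; group
      _ = z := by rw [e, b, p.cm, ← ex]; group
  have hxi : (π x')⁻¹ = π x' := inv_eq_of_mul_eq_one_right hxx
  have hyi : (π y')⁻¹ = π y' := inv_eq_of_mul_eq_one_right hyy
  have h3 : (π x' * π y') ^ 3 = 1 := by
    simp only [map_mul, map_inv, hxi, hyi] at hbr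
    rw [← hbr, pow_succ, pow_two]; simp only [mul_assoc]
  have hne : π x' ≠ π y' := fun e => by
    have : π (y'⁻¹ * x') = 1 := by rw [map_mul, map_inv, e, inv_mul_cancel]
    have := mem_Cz'.1 (p.R_le_C ((hπ _).1 this)).1
    apply p.h'.ne_mul z
    calc z * s = y * (y⁻¹ * x * z * (y⁻¹ * x)⁻¹) * y⁻¹ := by rw [← ex]; group
      _ = z := by rw [show y⁻¹ * x * z * (y⁻¹ * x)⁻¹ = z from this, mem_Cz'.1 (p.h.le hy)]
  obtain ⟨φ, h1, -, -, h4⟩ := exists_s3 hxx hyy h3 hne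
  refine ⟨(MulEquiv.ofBijective φ ⟨h1, MonoidHom.range_eq_top.1 ?_⟩).symm⟩
  rw [h4, eq_top_iff]
  rintro q -
  obtain ⟨⟨u, hu⟩, rfl⟩ := QuotientGroup.mk'_surjective _ q
  have hx' : π x' ∈ Subgroup.closure {π x', π y'} := subset_closure (by simp)
  have hy' : π y' ∈ Subgroup.closure {π x', π y'} := subset_closure (by simp)
  have key : Q ⊔ S ≤ ((Subgroup.closure {π x', π y'}).comap π).map (Q ⊔ S).subtype := by
    refine sup_le (fun u hu => ⟨⟨u, mem_sup_left hu⟩, ?_, rfl⟩)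
      fun u hu => ⟨⟨u, mem_sup_right hu⟩, ?_, rfl⟩
    · rcases p.mem_or hy ey hu with a | a
      · exact mem_comap.2 (((hπ ⟨u, _⟩).2 a) ▸ one_mem _)
      · have := (hπ (y'⁻¹ * ⟨u, mem_sup_left hu⟩)).2 a
        rw [map_mul, map_inv, inv_mul_eq_one] at this
        exact mem_comap.2 (this ▸ hy')
    · rcases p.symm.mem_or hx ex hu with a | a <;> rw [lxR_comm] at a
      · exact mem_comap.2 (((hπ ⟨u, _⟩).2 a) ▸ one_mem _)
      · have := (hπ (x'⁻¹ * ⟨u, mem_sup_right hu⟩)).2 a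
        rw [map_mul, map_inv, inv_mul_eq_one] at this
        exact mem_comap.2 (this ▸ hx')
  obtain ⟨v, hv, e⟩ := key hu
  have : v = ⟨u, hu⟩ := Subtype.ext e
  exact this ▸ hv

theorem R_eq : lxR z s Q S = (Q ⊔ S) ⊓ (Cz z ⊓ Cz s) := by
  obtain ⟨_, ⟨e⟩⟩ := p.s3
  have a : (lxR z s Q S).relIndex (Q ⊔ S) = 6 := by
    rw [relIndex, index, Nat.card_congr e.toEquiv]; simp [Nat.card_eq_fintype_card, Fintype.card_perm]; rfl
  have b := p.rel6 le_rfl p.X_le_NV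
  have c := H1.card_mul_relIndex p.R_le_X
  have d := H1.card_inf_mul_relIndex (Cz z ⊓ Cz s) (Q ⊔ S)
  rw [a] at c; rw [b, inf_comm] at d
  exact eq_of_le_of_card_ge (le_inf p.R_le_X p.R_le_C) (by omega)

theorem NV_eq : normalizer (lxV z s : Set G) = (Q ⊔ S) ⊔ (Cz z ⊓ Cz s) := by
  have hle : (Q ⊔ S) ⊔ (Cz z ⊓ Cz s) ≤ normalizer (lxV z s : Set G) := sup_le p.X_le_NV p.C_le_NV
  have a := p.rel6 le_sup_left hle
  have b := p.rel6 p.X_le_NV le_rfl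
  have c := relIndex_mul_relIndex _ _ _ (le_sup_right (a := Q ⊔ S)) hle
  rw [a, b] at c
  exact le_antisymm (relIndex_eq_one.1 (by omega)) hle

theorem pg_R : IsPGroup 2 (lxR z s Q S) :=
  IsPGroup.to_sup_of_normal_right' (p.h'.pg.to_le inf_le_left) (p.h.pg.to_le inf_le_left)
    ((le_inf inf_le_right (inf_le_left.trans p.h'.le)).trans p.C_le_NP)

theorem R_eq_core : lxR z s Q S = (pCore 2 ↥(Q ⊔ S)).map (Q ⊔ S).subtype := by
  obtain ⟨hn, -⟩ := p.s3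
  refine le_antisymm (fun r hr => ⟨⟨r, p.R_le_X hr⟩, H1.le_pCore (N := (lxR z s Q S).subgroupOf (Q ⊔ S))
    (p.pg_R.of_equiv (subgroupOfEquivOfLe p.R_le_X).symm) hr, rfl⟩) ?_
  set O := (pCore 2 ↥(Q ⊔ S)).map (Q ⊔ S).subtype
  have hO : O ≤ Q ⊔ S := map_subtype_le _
  have hN : Q ⊔ S ≤ normalizer (O : Set G) := H1.le_normalizer_map_subtype_iff.2 inferInstance
  obtain ⟨v, hv, h1⟩ := (ne_bot_iff_exists_ne_one.1 (H1.inf_centralizer_ne_bot_of_isPGroup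
    (p.h.pg.to_le p.V_le_Q) ((H1.isPGroup_pCore 2).map _) (hO.trans p.X_le_NV)
    (ne_bot_iff_exists_ne_one.2 ⟨⟨z, p.z_mem_V⟩, fun e => p.h.z_ne (congrArg Subtype.val e)⟩))).imp
      (fun v hv => And.intro v.2 hv) |> fun ⟨v, hv⟩ =>
        (⟨v, hv.1, fun e => hv.2 (Subtype.ext e)⟩ : ∃ v : G, v ∈ lxV z s ⊓ centralizer (O : Set G) ∧ v ≠ 1)
  obtain ⟨y, hy, ey⟩ := p.exists_y
  obtain ⟨x, hx, ex⟩ := p.exists_x
  have hy' : y ∈ Q ⊔ S := mem_sup_left hy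
  have hx' : x ∈ Q ⊔ S := mem_sup_right hx
  have hc : ∀ k ∈ Q ⊔ S, ∀ u ∈ centralizer (O : Set G), k * u * k⁻¹ ∈ centralizer (O : Set G) :=
    fun k hk u hu => H1.conj_mem_of_mem_normalizer (H1.le_normalizer_centralizer hN hk) hu
  obtain ⟨a, b⟩ := LX.swap p.h p.h'.zz p.sQ hy (p.h'.le hx) ex ey
  have hk := mul_mem (mul_mem hx' hy') hx'
  have hz : z ∈ centralizer (O : Set G) := by
    rcases p.mem_V.1 hv.1 with c | c | c | c
    · exact absurd c h1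
    · exact c ▸ hv.2
    · exact b ▸ hc _ hk s (c ▸ hv.2)
    · have := hc _ (inv_mem hx') _ (c ▸ hv.2)
      rwa [p.cm, ← ex, show x⁻¹ * (x * z * x⁻¹) * x⁻¹⁻¹ = z by group] at this
  have hs : s ∈ centralizer (O : Set G) := a ▸ hc _ hk z hz
  rw [p.R_eq]
  exact le_inf hO fun o ho => mem_inf.2 ⟨mem_Cz.2 (hz o ho), mem_Cz.2 (hs o ho)⟩

theorem E_eq : (S ⊓ Cz z) ⊓ (Q ⊓ Cz s) = Q ⊓ S :=
  le_antisymm (fun _ h => ⟨h.2.1, h.1.1⟩) fun _ h => ⟨⟨h.2, p.h.le h.1⟩, ⟨h.1, p.h'.le h.2⟩⟩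

/-- an element of `C(z)` centralising `C_Q(s)` lies in `V` -/
theorem mem_V_of_cent {c : G} (hc : c ∈ Cz z) (h1 : ∀ u ∈ Q ⊓ Cz s, c * u = u * c) : c ∈ lxV z s := by
  have hQ : c ∈ Q := p.h.mem_of_triv hc fun y hy => by
    have hd : y⁻¹ * (c * y * c⁻¹) ∈ Q := mul_mem (inv_mem hy) (p.h.nrm c hc y hy)
    have h2 := p.h.cc p.sQ hd fun u hu e => (LX.comm_move p.h hc hy hu
      (Or.inl (by rw [h1 u ⟨hu, mem_Cz.2 e⟩, mul_inv_cancel_right]))).symm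
    rcases p.h.conj (inv_mem hy) p.sQ with e | e
    · left
      rw [h1 y ⟨hy, (inv_mem_iff (H := Cz s)).1 (mem_Cz'.2 e)⟩, mul_inv_cancel_right]
    have h3 : c * y * c⁻¹ * (c * y * c⁻¹) = y * y := by
      calc _ = c * (y * y) * c⁻¹ := by group
        _ = _ := by
          rcases p.h.sq hy with a | a <;> rw [a]
          · group
          · exact mem_Cz'.1 hc
    have h4 : y * s * (y * s) = y * y * z := by
      calc _ = y * y * (y⁻¹ * s * y⁻¹⁻¹) * s := by group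
        _ = _ := by rw [e, p.cm, mul_assoc, mul_assoc z, p.h'.zz, mul_one]
    rcases h2 with a | a | a | a
    · left; rw [inv_mul_eq_one] at a; exact a.symm
    · right; rw [← a]; group
    · rw [inv_mul_eq_iff_eq_mul] at a
      rw [a, h4] at h3
      exact absurd h3 (p.h.ne_mul _)
    · rw [inv_mul_eq_iff_eq_mul] at a
      have := p.h.comm (mul_mem hy p.sQ)
      rw [a, ← mul_assoc y s z, mul_assoc _ z, ← mul_assoc z, ← this, mul_assoc _ z z, p.h.zz, mul_one,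
        h4] at h3
      exact absurd h3 (p.h.ne_mul _)
  exact p.mem_V.2 (p.h.cc p.sQ hQ fun u hu e => (h1 u ⟨hu, mem_Cz.2 e⟩).symm)

theorem center_R : (center (lxR z s Q S)).map (lxR z s Q S).subtype = lxV z s := by
  rw [H5.map_center_subtype]
  refine le_antisymm (fun c hc => p.mem_V_of_cent (p.R_le_C hc.1).1 fun u hu =>
    (hc.2 u (mem_sup_right hu)).symm) (le_inf ?_ ?_)
  · exact fun v hv => mem_sup_right (mem_inf.2 ⟨p.V_le_Q hv, p.h'.le (p.V_le_S hv)⟩)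
  · rw [le_centralizer_iff, cent_lxV]; exact p.R_le_C

theorem comm_E : ⁅Q ⊔ S, Q ⊓ S⁆ ≤ lxV z s := by
  let T : Subgroup G :=
    { carrier := {x | x ∈ normalizer (lxV z s : Set G) ∧ ∀ e ∈ Q ⊓ S, x * e * x⁻¹ * e⁻¹ ∈ lxV z s}
      one_mem' := ⟨one_mem _, fun e _ => by simp⟩
      mul_mem' := fun {a b} ha hb => ⟨mul_mem ha.1 hb.1, fun e he => by
        have := mul_mem (H1.conj_mem_of_mem_normalizer ha.1 (hb.2 e he)) (ha.2 e he)
        convert this using 1; group⟩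
      inv_mem' := fun {a} ha => ⟨inv_mem ha.1, fun e he => by
        have := H1.conj_mem_of_mem_normalizer' ha.1 (inv_mem (ha.2 e he))
        have h2 : a⁻¹ * e * a⁻¹⁻¹ * e⁻¹ = a⁻¹ * (a * e * a⁻¹ * e⁻¹)⁻¹ * a := by group
        rwa [h2]⟩ }
  have : Q ⊔ S ≤ T := sup_le (fun y hy => ⟨p.Q_le_NV hy, fun e he => by
      rcases p.h.conj hy he.1 with a | a <;> rw [a]
      · simp
      · rw [p.h.comm he.1, mul_inv_cancel_right]; exact p.z_mem_V⟩)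
    fun y hy => ⟨p.S_le_NV hy, fun e he => by
      rcases p.h'.conj hy he.2 with a | a <;> rw [a]
      · simp
      · rw [p.h'.comm he.2, mul_inv_cancel_right]; exact p.s_mem_V⟩
  exact commutator_le.2 fun x hx e he => (this hx).2 e he

theorem R_mod_E {x y : G} (hx : x ∈ lxR z s Q S) (hy : y ∈ lxR z s Q S) :
    x * y * x⁻¹ * y⁻¹ ∈ Q ⊓ S ∧ x ^ 2 ∈ Q ⊓ S := by
  have hN : lxR z s Q S ≤ normalizer ((Q ⊓ S : Subgroup G) : Set G) :=
    p.R_le_C.trans (H1.le_normalizer_inf p.C_le_NQ p.C_le_NS)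
  have hn : ((Q ⊓ S).subgroupOf (lxR z s Q S)).Normal := normal_subgroupOf_of_le_normalizer hN
  let π := QuotientGroup.mk' ((Q ⊓ S).subgroupOf (lxR z s Q S))
  have hπ : ∀ u : lxR z s Q S, π u = 1 ↔ (u : G) ∈ Q ⊓ S := fun u => QuotientGroup.eq_one_iff u
  have cmm : ∀ u v : lxR z s Q S, (u : G) * v * (u : G)⁻¹ * (v : G)⁻¹ ∈ Q ⊓ S → Commute (π u) (π v) :=
    fun u v e => by
      have := (hπ (u * v * u⁻¹ * v⁻¹)).2 e
      simp only [map_mul, map_inv] at this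
      rwa [mul_inv_eq_one, mul_inv_eq_iff_eq_mul] at this
  have hzE : z ∈ Q ⊓ S := ⟨p.h.zm, p.zS⟩
  have hsE : s ∈ Q ⊓ S := ⟨p.sQ, p.h'.zm⟩
  have c1 : ∀ a ∈ S, ∀ b ∈ S, a * b * a⁻¹ * b⁻¹ ∈ Q ⊓ S := fun a ha b hb => by
    rcases p.h'.conj ha hb with e | e <;> rw [e]
    · simp
    · rwa [p.h'.comm hb, mul_inv_cancel_right]
  have c2 : ∀ a ∈ Q, ∀ b ∈ Q, a * b * a⁻¹ * b⁻¹ ∈ Q ⊓ S := fun a ha b hb => by
    rcases p.h.conj ha hb with e | e <;> rw [e]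
    · simp
    · rwa [p.h.comm hb, mul_inv_cancel_right]
  have c3 : ∀ a ∈ S ⊓ Cz z, ∀ b ∈ Q ⊓ Cz s, a * b * a⁻¹ * b⁻¹ ∈ Q ⊓ S := fun a ha b hb =>
    mem_inf.2 ⟨mul_mem (p.h.nrm a ha.2 b hb.1) (inv_mem hb.1), by
      simpa [mul_assoc] using mul_mem ha.1 (p.h'.nrm b hb.2 _ (inv_mem ha.1))⟩
  obtain ⟨a, ha, b, hb, rfl⟩ := p.mem_R.1 hx
  obtain ⟨c, hc, d, hd, rfl⟩ := p.mem_R.1 hy
  let a' : lxR z s Q S := ⟨a, mem_sup_left ha⟩
  let b' : lxR z s Q S := ⟨b, mem_sup_right hb⟩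
  let c' : lxR z s Q S := ⟨c, mem_sup_left hc⟩
  let d' : lxR z s Q S := ⟨d, mem_sup_right hd⟩
  constructor
  · refine (hπ (a' * b' * (c' * d') * (a' * b')⁻¹ * (c' * d')⁻¹)).1 ?_
    have : Commute (π a' * π b') (π c' * π d') :=
      ((cmm a' c' (c1 a ha.1 c hc.1)).mul_right (cmm a' d' (c3 a ha d hd))).mul_left
        ((cmm c' b' (c3 c hc b hb)).symm.mul_right (cmm b' d' (c2 b hb.1 d hd.1)))
    simp only [map_mul, map_inv]
    rw [this.eq]; group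
  · refine (hπ ((a' * b') ^ 2)).1 ?_
    rw [map_pow, map_mul, (cmm a' b' (c3 a ha b hb)).mul_pow, ← map_pow, ← map_pow, (hπ _).2, (hπ _).2,
      one_mul]
    · show b ^ 2 ∈ _
      rcases p.h.sq hb.1 with e | e <;> rw [pow_two, e]
      exacts [one_mem _, hzE]
    · show a ^ 2 ∈ _
      rcases p.h'.sq ha.1 with e | e <;> rw [pow_two, e]
      exacts [one_mem _, hsE]

theorem large : IsLargeExtraspecial Q :=
  LX.large_of_inv p.h p.sQ p.h'.z_ne p.ne p.h'.zz p.h'.pg p.zS p.h'.nrm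

end LP
end H18
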