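import Cfsg.Agent.H18.LX2
/-! Large extraspecial 2-subgroups, part 3: singular subgroups; Sylow facts; criteria. -/
set_option autoImplicit false
namespace H18
open Cfsg Subgroup H13
open scoped Pointwise commutatorElement

variable {G : Type*} [Group G] [Finite G]

/-- a singular subgroup -/
structure LS (Q : G → Subgroup G) (U : Subgroup G) (w : ℕ) : Prop where
  xs : ∀ u ∈ U, u ≠ 1 → XS u (Q u) w
  cj : ∀ g u, Q (g * u * g⁻¹) = MulAut.conj g • Q u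
  le : ∀ u ∈ U, u ≠ 1 → U ≤ Q u

theorem ls_of {Q : G → Subgroup G}
    (hQ : ∀ x : G, Q x = (pCore 2 (Cz x)).map (Cz x).subtype) {z : G} (hz : orderOf z = 2)
    (hE : IsExtraspecial 2 (Q z)) (hC : centralizer (Q z : Set G) ≤ Q z) {U : Subgroup G}
    (hS : ∀ u ∈ U, u ≠ 1 → ∃ g : G, g * z * g⁻¹ = u)
    (hO : ∀ u ∈ U, ∀ v ∈ U, u ≠ 1 → v ≠ 1 → v ∈ Q u) : ∃ w, LS Q U w := by
  obtain ⟨w, -, h⟩ := lx_xs_of_core hz (hQ z) hE hC
  have hc : ∀ g u, Q (g * u * g⁻¹) = MulAut.conj g • Q u := fun g u => by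
    rw [hQ, lx_core_conj, ← hQ]
  refine ⟨w, fun u hu h1 => ?_, hc, fun u hu h1 v hv => ?_⟩
  · obtain ⟨g, rfl⟩ := hS u hu h1
    rw [hc]; exact h.smul g
  · by_cases a : v = 1
    · rw [a]; exact one_mem _
    · exact hO u hu v hv h1 a

namespace LS
variable {Q : G → Subgroup G} {U : Subgroup G} {w : ℕ} (h : LS Q U w)
include h

theorem sq {u : G} (hu : u ∈ U) : u * u = 1 := by
  by_cases a : u = 1
  · simp [a]
  · exact (h.xs u hu a).zz

theorem comm {u v : G} (hu : u ∈ U) (hv : v ∈ U) : u * v = v * u := by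
  have a := h.sq (mul_mem hu hv)
  calc u * v = u * v * (u * u) * (v * v) := by rw [h.sq hu, h.sq hv]; group
    _ = (v * v) * (u * v * (u * v))⁻¹ * u * v * (u * u) * (v * v) := by rw [h.sq hv, a]; group
    _ = v * v * v⁻¹ * u⁻¹ * v⁻¹ * v * (u * u) * (v * v) := by group
    _ = v * u := by rw [h.sq hv]; group; rw [show v ^ (-1 : ℤ) = v from by
        rw [zpow_neg_one]; exact inv_eq_of_mul_eq_one_right (h.sq hv)]

theorem le_norm {u : G} (hu : u ∈ U) (h1 : u ≠ 1) : Q u ≤ normalizer (U : Set G) := fun y hy => by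
  refine mem_normalizer_fintype fun v hv => ?_
  rcases (h.xs u hu h1).conj hy (h.le u hu h1 hv) with a | a <;> rw [a]
  exacts [hv, mul_mem hv hu]

theorem L_le_norm : ⨆ u ∈ ((U : Set G) \ {1}), Q u ≤ normalizer (U : Set G) :=
  iSup₂_le fun _ hu => h.le_norm hu.1 hu.2

theorem induces (φ : U ≃* U) :
    ∃ g ∈ ⨆ u ∈ ((U : Set G) \ {1}), Q u, ∀ u : U, g * (u : G) * g⁻¹ = φ u := by
  let Fx : (U ≃* U) → Subgroup U := fun φ => φ.toMonoidHom.eqLocus (MonoidHom.id U)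
  induction hn : (Fx φ).index using Nat.strong_induction_on generalizing φ with
  | _ n ih =>
  by_cases ht : ∀ a, φ a = a
  · exact ⟨1, one_mem _, fun u => by rw [ht]; group⟩
  push Not at ht
  obtain ⟨a, ha⟩ := ht
  have hu : (a : G) * φ a ∈ U := mul_mem a.2 (φ a).2
  have hu1 : (a : G) * φ a ≠ 1 := fun e => ha (Subtype.ext (by
    rw [← inv_eq_of_mul_eq_one_right e]; exact inv_eq_of_mul_eq_one_right (h.sq a.2)))
  have x := h.xs _ hu hu1
  have hW : (Fx φ).map U.subtype ⊔ zpowers ((a : G) * φ a) ≤ U :=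
    sup_le (map_subtype_le _) (zpowers_le.2 hu)
  obtain ⟨y, hy, h1, h2⟩ := LX.exists_sep x (hW.trans (h.le _ hu hu1)) (mem_sup_right (mem_zpowers _))
    (h.le _ hu hu1 (φ a).2) (by
      rw [H1.mem_sup_of_le_normalizer_left (zpowers_le.2 (centralizer_le_normalizer _
        fun v hv => h.comm (map_subtype_le _ hv) hu))]
      rintro ⟨_, ⟨v, hv, rfl⟩, t, ht, e⟩
      replace hv : φ v = v := hv
      rcases (mem_zpowers_two x.z2).1 ht with rfl | rfl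
      · rw [mul_one] at e
        have : v = φ a := Subtype.ext e
        rw [this] at hv
        exact ha (φ.injective hv)
      · rw [← mul_assoc, mul_eq_right] at e
        have : v = a := Subtype.ext (by
          rw [show (v : G) = (a : G)⁻¹ from eq_inv_of_mul_eq_one_left e]
          exact inv_eq_of_mul_eq_one_right (h.sq a.2))
        exact ha (this ▸ hv))
  have hyN := h.le_norm hu hu1 hy
  let ψ : U ≃* U := φ.trans (U.normalizerMonoidHom ⟨y, hyN⟩)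
  have hψ : ∀ u, (ψ u : G) = y * φ u * y⁻¹ := fun u => rfl
  have hlt : Fx φ < Fx ψ := by
    refine lt_of_le_of_ne (fun v hv => Subtype.ext ?_) fun e => ha ?_
    · replace hv : φ v = v := hv
      show (ψ v : G) = v
      rw [hψ, hv]; exact h1 _ (mem_sup_left ⟨v, hv, rfl⟩)
    · have : a ∈ Fx ψ := Subtype.ext (by
        show (ψ a : G) = a
        rw [hψ, h2, h.comm a.2 (φ a).2, ← mul_assoc, h.sq (φ a).2, one_mul])
      rw [← e] at this
      exact this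
  obtain ⟨g, hg, e⟩ := ih _ (hn ▸ index_strictAnti hlt) ψ rfl
  refine ⟨y⁻¹ * g, mul_mem (inv_mem ?_) hg, fun u => ?_⟩
  · exact (le_iSup₂ (f := fun u (_ : u ∈ ((U : Set G) \ {1})) => Q u) _ ⟨hu, hu1⟩) hy
  · calc y⁻¹ * g * u * (y⁻¹ * g)⁻¹ = y⁻¹ * (g * u * g⁻¹) * y := by group
      _ = _ := by rw [e, hψ]; group

theorem triv {g : G} (hg : g ∈ ⨆ u ∈ ((U : Set G) \ {1}), Q u) {x : G}
    (hx : x ∈ ⨅ u ∈ ((U : Set G) \ {1}), Q u) : g * x * g⁻¹ * x⁻¹ ∈ U := by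
  let T : Subgroup G :=
    { carrier := {g | g ∈ normalizer (U : Set G) ∧ g * x * g⁻¹ * x⁻¹ ∈ U}
      one_mem' := ⟨one_mem _, by simp⟩
      mul_mem' := fun {a b} ha hb => ⟨mul_mem ha.1 hb.1, by
        have := mul_mem (H1.conj_mem_of_mem_normalizer ha.1 hb.2) ha.2
        convert this using 1; group⟩
      inv_mem' := fun {a} ha => ⟨inv_mem ha.1, by
        have := H1.conj_mem_of_mem_normalizer' ha.1 (inv_mem ha.2)
        have h2 : a⁻¹ * x * a⁻¹⁻¹ * x⁻¹ = a⁻¹ * (a * x * a⁻¹ * x⁻¹)⁻¹ * a := by group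
        rwa [h2]⟩ }
  have : ⨆ u ∈ ((U : Set G) \ {1}), Q u ≤ T := iSup₂_le fun u hu y hy => ⟨h.le_norm hu.1 hu.2 hy, by
    have hx' : x ∈ Q u := mem_iInf.1 (mem_iInf.1 hx u) hu
    rcases (h.xs u hu.1 hu.2).conj hy hx' with a | a <;> rw [a]
    · simp
    · rw [(h.xs u hu.1 hu.2).comm hx', mul_inv_cancel_right]; exact hu.1⟩
  exact (this hg).2

theorem mul_mem_Q {a b x : G} (ha : a ∈ U) (hb : b ∈ U) (ha1 : a ≠ 1) (hb1 : b ≠ 1) (hab : a * b ≠ 1)
    (h1 : x ∈ Q a) (h2 : x ∈ Q b) : x ∈ Q (a * b) := by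
  have xa := h.xs a ha ha1
  obtain ⟨y, hy, e⟩ := xa.exists_nc (h.le a ha ha1 hb) hb1 fun e => hab (by rw [e, xa.zz])
  have h3 : y * x * y⁻¹ ∈ Q (a * b) := by
    rw [h.comm ha hb, ← e, h.cj]; exact H1.conj_mem_conj_smul h2
  rcases xa.conj hy h1 with c | c <;> rw [c] at h3
  · exact h3
  · exact (Subgroup.mul_mem_cancel_right _ (h.le _ (mul_mem ha hb) hab ha)).1 h3

end LS

/-- `Z(T) = ⟨z⟩` style Sylow lemma -/
theorem lx_sylow {z : G} (hz : orderOf z = 2) {L T : Subgroup G} (hT : T ≤ L ⊓ Cz z) (h2 : IsPGroup 2 T)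
    (hmax : ∀ T' : Subgroup G, IsPGroup 2 T' → T ≤ T' → T' ≤ L ⊓ Cz z → T' = T)
    (hZ : ∀ c ∈ T, (∀ t ∈ T, t * c = c * t) → c = 1 ∨ c = z) (hzT : z ∈ T) :
    normalizer (T : Set G) ≤ Cz z ∧ ∀ T' : Subgroup G, IsPGroup 2 T' → T ≤ T' → T' ≤ L → T' = T := by
  have h1 : normalizer (T : Set G) ≤ Cz z := fun g hg => by
    rcases hZ _ (H1.conj_mem_of_mem_normalizer hg hzT) fun t ht => by
      have := mem_Cz.1 (hT (H1.conj_mem_of_mem_normalizer' hg ht)).2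
      calc t * (g * z * g⁻¹) = g * (g⁻¹ * t * g * z) * g⁻¹ := by group
        _ = _ := by rw [this]; group with a | a
    · rw [show z = 1 by simpa using a, orderOf_one] at hz; omega
    · exact mem_Cz'.2 a
  refine ⟨h1, fun T' h3 h4 h5 => ?_⟩
  by_contra hne
  have := H1.lt_inf_normalizer_of_isNilpotent h3.isNilpotent (lt_of_le_of_ne h4 (Ne.symm hne))
  exact this.ne' (hmax _ (h3.to_le inf_le_left) this.le (inf_le_inf h5 h1))

theorem lx_exists_max {L Q : Subgroup G} (hQ : IsPGroup 2 Q) (hle : Q ≤ L) :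
    ∃ T : Subgroup G, Q ≤ T ∧ T ≤ L ∧ IsPGroup 2 T ∧ ∀ T' : Subgroup G, IsPGroup 2 T' → T ≤ T' → T' ≤ L → T' = T := by
  obtain ⟨T, ⟨h1, h2⟩, h3, h4⟩ := H1.exists_maximal_ge (fun T => T ≤ L ∧ IsPGroup 2 T) ⟨hle, hQ⟩
  exact ⟨T, h3, h1, h2, fun T' a b c => h4 T' ⟨c, a⟩ b⟩

theorem lx_es_of {z : G} {K : Subgroup G} (z2 : orderOf z = 2) (hz : z ∈ K)
    (hzc : ∀ a ∈ K, a * z = z * a)
    (hcom : ∀ a ∈ K, ∀ b ∈ K, a * b * a⁻¹ = b ∨ a * b * a⁻¹ = b * z)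
    (hsq : ∀ a ∈ K, a * a = 1 ∨ a * a = z)
    (hcen : ∀ a ∈ K, (∀ b ∈ K, a * b = b * a) → a = 1 ∨ a = z)
    (hne : ∃ a ∈ K, a ≠ 1 ∧ a ≠ z) : IsExtraspecial 2 K := by
  have z2' : orderOf (⟨z, hz⟩ : K) = 2 := by rw [← z2, ← orderOf_coe]
  refine H3.IsES.isExtraspecial (z := ⟨z, hz⟩) ⟨z2', mem_center_iff.2 fun g => Subtype.ext (hzc g g.2),
    mem_top _, fun a _ b _ => ?_, fun a _ => ?_, fun a _ ha => ?_⟩ fun e => ?_
  · rw [mem_zpowers_two z2', commutatorElement_def]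
    refine (hcom a a.2 b b.2).imp (fun e => Subtype.ext ?_) fun e => Subtype.ext ?_
    · show (a : G) * b * (a : G)⁻¹ * (b : G)⁻¹ = 1
      rw [e, mul_inv_cancel]
    · show (a : G) * b * (a : G)⁻¹ * (b : G)⁻¹ = z
      rw [e, hzc b b.2, mul_inv_cancel_right]
  · rw [mem_zpowers_two z2', pow_two]
    exact (hsq a a.2).imp (fun e => Subtype.ext e) fun e => Subtype.ext e
  · rw [mem_zpowers_two z2']
    exact (hcen a a.2 fun b hb => congrArg Subtype.val (ha ⟨b, hb⟩ (mem_top _))).imp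
      (fun e => Subtype.ext e) fun e => Subtype.ext e
  · obtain ⟨a, ha, h1, h2⟩ := hne
    have : (⟨a, ha⟩ : K) ∈ zpowers (⟨z, hz⟩ : K) := e ▸ mem_top _
    rcases (mem_zpowers_two z2').1 this with b | b
    exacts [h1 (congrArg Subtype.val b), h2 (congrArg Subtype.val b)]

theorem lx_xs_of_data {z : G} {K : Subgroup G} (z2 : orderOf z = 2) (hz : z ∈ K)
    (hzc : ∀ a ∈ K, a * z = z * a)
    (hcom : ∀ a ∈ K, ∀ b ∈ K, a * b * a⁻¹ = b ∨ a * b * a⁻¹ = b * z)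
    (hsq : ∀ a ∈ K, a * a = 1 ∨ a * a = z)
    (hcen : ∀ a, (∀ b ∈ K, a * b = b * a) → a = 1 ∨ a = z)
    (hne : ∃ a ∈ K, a ≠ 1 ∧ a ≠ z) (hn : ∀ h ∈ Cz z, ∀ x ∈ K, h * x * h⁻¹ ∈ K) : ∃ w, XS z K w := by
  have es := lx_es_of z2 hz hzc hcom hsq (fun a _ => hcen a) hne
  obtain ⟨w, -, hc⟩ := H7.extraspecial_card es
  refine ⟨w, z2, es, le_antisymm (fun a ha => (mem_zpowers_two z2).2 (hcen a fun b hb => (ha.2 b hb).symm))
    (zpowers_le.2 (mem_inf.2 ⟨hz, hzc⟩)), hc, hn, fun a ha => ?_⟩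
  rcases hcen a fun b hb => (ha b hb).symm with e | e <;> rw [e]
  exacts [one_mem _, hz]

namespace LX
variable {z : G} {Q : Subgroup G} {w : ℕ} (h : XS z Q w)
include h

theorem es_sub {K : Subgroup G} (hK : K ≤ Q) (hcen : ∀ a ∈ K, (∀ b ∈ K, a * b = b * a) → a = 1 ∨ a = z)
    (hne : ∃ a ∈ K, a ≠ 1 ∧ a ≠ z) : IsExtraspecial 2 K := by
  obtain ⟨a, ha, h1, h2⟩ := hne
  have hz : z ∈ K := by
    by_contra hz
    refine (hcen a ha fun b hb => (h.com (hK ha) (hK hb)).resolve_right fun e => hz ?_).elim h1 h2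
    rw [show z = (b * a)⁻¹ * (a * b) by rw [e]; group]
    exact mul_mem (inv_mem (mul_mem hb ha)) (mul_mem ha hb)
  exact lx_es_of h.z2 hz (fun a ha => h.comm (hK ha)) (fun a ha b hb => h.conj (hK ha) (hK hb))
    (fun a ha => h.sq (hK ha)) hcen ⟨a, ha, h1, h2⟩

omit [Finite G] in
theorem comm_cent {A : Subgroup G} (hA : A ≤ Cz z) {x y : G} (hx : x ∈ Q ⊓ centralizer (A : Set G))
    (hy : y ∈ ⁅Q, A⁆) : x * y = y * x := by
  have : ⁅Q, A⁆ ≤ Cz x := commutator_le.2 fun v hv a ha => mem_Cz.2 (by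
    have := comm_move h (hA ha) (inv_mem hv) hx.1 (Or.inl (by rw [hx.2 a ha, mul_inv_cancel_right]))
    rw [inv_inv] at this
    rw [commutatorElement_def]
    simpa only [mul_assoc] using this)
  exact (mem_Cz.1 (this hy)).symm

theorem coprime_dec {A : Subgroup G} (hA : A ≤ Cz z) (ho : Odd (Nat.card A)) {k : G} (hk : k ∈ Q) :
    ∃ c ∈ Q ⊓ centralizer (A : Set G), ∃ x ∈ ⁅Q, A⁆, k = c * x :=
  H1.exists_centralizer_mul_commutator (hA.trans h.le_norm)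
    (H1.IsPGroup.coprime_card h.pg (Nat.coprime_two_right.2 ho)).symm
    (Or.inr (haveI := h.pg.isNilpotent; inferInstance)) hk

theorem comm_le {A : Subgroup G} (hA : A ≤ Cz z) : ⁅Q, A⁆ ≤ Q :=
  commutator_le.2 fun v hv a ha => by
    rw [commutatorElement_def]
    simpa only [mul_assoc] using mul_mem hv (h.nrm a (hA ha) _ (inv_mem hv))

theorem cen_cent {A : Subgroup G} (hA : A ≤ Cz z) (ho : Odd (Nat.card A)) {a : G}
    (ha : a ∈ Q ⊓ centralizer (A : Set G)) (hc : ∀ b ∈ Q ⊓ centralizer (A : Set G), a * b = b * a) :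
    a = 1 ∨ a = z := h.cen' ha.1 fun k hk => by
  obtain ⟨c, h1, x, h2, rfl⟩ := coprime_dec h hA ho hk
  rw [← mul_assoc, hc c h1, mul_assoc, comm_cent h hA ha h2, mul_assoc]

theorem cen_comm {A : Subgroup G} (hA : A ≤ Cz z) (ho : Odd (Nat.card A)) {a : G}
    (ha : a ∈ ⁅Q, A⁆) (hc : ∀ b ∈ ⁅Q, A⁆, a * b = b * a) :
    a = 1 ∨ a = z := h.cen' (comm_le h hA ha) fun k hk => by
  obtain ⟨c, h1, x, h2, rfl⟩ := coprime_dec h hA ho hk
  rw [← mul_assoc, ← comm_cent h hA h1 ha, mul_assoc, hc x h2, mul_assoc]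

theorem exists_nc_cent {A : Subgroup G} (hA : A ≤ Cz z) (ho : Odd (Nat.card A)) {a : G}
    (ha : a ∈ Q ⊓ centralizer (A : Set G)) (h1 : a ≠ 1) (hz : a ≠ z) :
    ∃ b ∈ Q ⊓ centralizer (A : Set G), b * a * b⁻¹ = a * z := by
  by_contra! c
  refine (cen_cent h hA ho ha fun b hb => ?_).elim h1 hz
  exact (mul_inv_eq_iff_eq_mul.1 ((h.conj hb.1 ha.1).resolve_right (c b hb))).symm

theorem norm_le : normalizer (Q : Set G) ≤ Cz z := by
  have := H1.extraspecial_two_NN_le h.es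
  rwa [h.cen, H5.centralizer_zpowers] at this

end LX
end H18
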