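import Cfsg.Agent.H20.Stn3
import Cfsg.Agent.Lead.CF4
import Cfsg.Agent.H16.Not

/-! Groups with a single `p`-block: local criterion and norm inequalities. -/

set_option autoImplicit false
set_option linter.unusedSectionVars false

open MonoidAlgebra Subgroup H10 Cfsg H17 Finset H20
open H19 (kk Blk irr)

namespace H18

theorem isDef_le_of_cent {k : Type*} [Field k] {G : Type*} [Group G] [Finite G] {p : ℕ}
    [Fact p.Prime] [CharP k p] {b : k[G]} {D A : Subgroup G} (hD : IsDef p ⊤ b D)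
    (hb : IsBlk ⊤ b) (hA : IsPGroup p A) (h : cent D ≤ nrm A) (h' : D ≤ nrm A) : A ≤ D := by
  have h1 : A ⊓ nrm D ≤ D := by
    have h2 : IsPGroup p (A ⊓ nrm D : Subgroup G) := hA.to_inf_left
    have h3 := br_ne_zero_of_normal h2 (br_mem_fixed inf_le_right (fixed_anti le_top hb.fixed))
      (supp_mono (fun g hg => mem_nrm.2 (by
        rw [sc_inf, sc_eq_of_nrm (h hg), sc_eq_of_mem (cent_le_nrm _ hg)]))
        (br_mem_supp D b)) (br_idem hD.pg (fixed_anti le_top hb.fixed) hb.idem) hD.ne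
    rw [br_br] at h3
    exact le_sup_left.trans (hD.max _ (isPGroup_sup_of_NN h2 hD.pg inf_le_right) le_top
      le_sup_right h3).le
  by_contra h2
  have h3 := lt_inf_nrm (isPGroup_sup_of_NN' hA hD.pg h') (right_lt_sup.2 h2)
  refine h3.not_ge fun g ⟨hg, hg'⟩ => ?_
  obtain ⟨a, ha, d, hd, rfl⟩ := (H24.mem_sup_of_le_normalizer h').1 hg
  exact mul_mem (h1 ⟨ha, (mul_mem_cancel_right (le_nrm_self D hd)).1 hg'⟩) hd

/-- the centraliser of `z` is of characteristic `p`, witnessed by `A` -/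
def CZa (p : ℕ) {G : Type*} [Group G] (z : G) (A : Subgroup G) : Prop :=
  IsPGroup p A ∧ centralizer {z} ≤ nrm A ∧
    ∀ y ∈ centralizer {z}, y ∈ cent A → ¬ p ∣ orderOf y → y = 1

/-- centralisers of elements of order `p` are of characteristic `p` -/
def CZp (p : ℕ) (G : Type*) [Group G] : Prop := ∀ z : G, orderOf z = p → ∃ A, CZa p z A

theorem CZa.comap {p : ℕ} {G H : Type*} [Group G] [Group H] (f : H →* G)
    (hf : Function.Injective f) {z : H} {A : Subgroup G} (h : CZa p (f z) A) (hA : A ≤ f.range) :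
    CZa p z (A.comap f) := by
  obtain ⟨h1, h2, h3⟩ := h
  have h4 : ∀ g ∈ centralizer {z}, f g ∈ centralizer {f z} := fun g hg =>
    mem_centralizer_singleton_iff.2 (by
      rw [← map_mul, ← map_mul, mem_centralizer_singleton_iff.1 hg])
  refine ⟨h1.comap_of_injective _ hf, mem_nrm_of_le' fun g hg a ha => ?_, fun y hy hy' h5 => ?_⟩
  · simpa using (mem_normalizer_iff.1 (h2 (h4 g hg)) _).1 ha
  · refine hf ((h3 _ (h4 y hy) (fun a ha => ?_) (by rwa [orderOf_injective f hf])).trans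
      f.map_one.symm)
    obtain ⟨a, rfl⟩ := hA ha
    rw [← map_mul, ← map_mul, hy' a ha]

section
variable {G : Type*} [Group G] [Finite G] {p : ℕ} [hp : Fact p.Prime]

theorem exists_cen_ord {D : Subgroup G} (hD : IsPGroup p D) (h0 : D ≠ ⊥) :
    ∃ z ∈ D, orderOf z = p ∧ D ≤ centralizer {z} := by
  have : Nontrivial D := (nontrivial_iff_ne_bot D).2 h0
  have h1 := hD.center_nontrivial
  have h2 : p ∣ Nat.card (center D) := by
    obtain ⟨n, hn, h⟩ := (hD.to_subgroup (center D)).nontrivial_iff_card.1 h1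
    rw [h]; exact dvd_pow_self p hn.ne'
  obtain ⟨z, hz⟩ := exists_prime_orderOf_dvd_card' p h2
  refine ⟨z.1.1, z.1.2, by rw [orderOf_coe, orderOf_coe, hz], fun g hg => ?_⟩
  exact mem_centralizer_singleton_iff.2 (congrArg Subtype.val (mem_center_iff.1 z.2 ⟨g, hg⟩))

theorem CZp.one (h : CZp p G) {D : Subgroup G} (hD : IsPGroup p D) (h0 : D ≠ ⊥)
    (hA : ∀ A : Subgroup G, IsPGroup p A → cent D ≤ nrm A → D ≤ nrm A → A ≤ D) {y : G}
    (hy : y ∈ cent D) (h1 : ¬ p ∣ orderOf y) : y = 1 := by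
  obtain ⟨z, hz, h2, h3⟩ := exists_cen_ord hD h0
  obtain ⟨A, h4, h5, h6⟩ := h z h2
  have h7 : cent D ≤ centralizer {z} := fun g hg => mem_centralizer_singleton_iff.2 (hg z hz).symm
  exact h6 y (h7 hy) (fun a ha => hy a (hA A h4 (h7.trans h5) (h3.trans h5) ha)) h1

theorem CZp.sameBlock (h : CZp p G) (h0 : ∀ χ : IrrCharacter G, vd p χ ≠ (Nat.card G).factorization p)
    {M : Ideal AlgInt} (hM : IsPModular p M) (χ ψ : IrrCharacter G) :
    SameBlock M (χ : G → ℂ) (ψ : G → ℂ) := by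
  obtain ⟨O, hO, _⟩ := H19.exists_over hM
  rw [hO.sameBlock_iff]
  obtain ⟨P, hP⟩ := exists_isSylowIn p (⊤ : Subgroup G)
  have hP0 : P ≠ ⊥ := fun e => h0 χ ((vd_le p χ).antisymm (by
    have := hP.card_eq_pow
    rw [e, card_bot, card_top, eq_comm, Nat.pow_eq_one] at this
    rw [this.resolve_left hp.out.ne_one]; exact Nat.zero_le _))
  have h1 : ∀ β : Blk O G, H19.IsDef p β P := fun β => by
    obtain ⟨y, hy⟩ := exists_isDefCl β
    obtain ⟨D, hD⟩ := exists_isSylowIn p (centralizer {y})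
    have h1 := isDef_of_isDefCl hy hD
    have h2 : D ≠ ⊥ := fun e => by
      obtain ⟨χ, rfl⟩ := H19.lam_surjective β
      exact h0 χ (H19.vd_of_defect_zero (by
        rw [← h1.fact_card, e, card_bot, Nat.factorization_one]; rfl) rfl)
    have h3 := h.one hD.isPGroup h2 (fun A hA => isDef_le_of_cent h1 (isBlk_eG β) hA)
      (mem_cent_iff_le.2 hD.le) hy.preg
    refine (isDef_iff _ _).2 (isDef_of_isDefCl hy ?_)
    rwa [h3, show centralizer {(1 : G)} = ⊤ from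
      eq_top_iff.2 fun g _ => mem_centralizer_singleton_iff.2 (by simp)]
  have h2 : Nat.card {β : Blk O G // H19.IsDef p β P} = 1 := by
    rw [H19.card_isDef_of_sylow hP, H19.card_blk_of_normal_sylow (H10.isSylowIn_subgroupOf_top
      (hP.of_le (le_nrm_self _) le_top))]
    simp only [H19.subgroupOf_cent (le_nrm_self _), mem_subgroupOf]
    refine Nat.card_eq_one_iff_exists.2 ⟨⟨.mk 1, fun n hn => ?_⟩, fun ⟨C, hC⟩ => Subtype.ext ?_⟩
    · rw [isConj_one_left.1 (ConjClasses.mk_eq_mk_iff_isConj.1 hn)]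
      exact ⟨by rw [orderOf_one]; exact hp.out.not_dvd_one, one_mem _⟩
    · obtain ⟨n, rfl⟩ := ConjClasses.mk_surjective C
      have := h.one hP.isPGroup hP0 (fun A hA _ h3 => le_sup_left.trans (hP.eq_of_le
        (isPGroup_sup_of_NN' hA hP.isPGroup h3) le_sup_right le_top).le) (hC n rfl).2
        (orderOf_coe n ▸ (hC n rfl).1)
      exact congrArg ConjClasses.mk (Subtype.ext this)
  exact Subtype.mk.inj ((Nat.card_eq_one_iff_unique.1 h2).1.elim ⟨_, h1 _⟩ ⟨_, h1 _⟩)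

end

section
open CF
variable {G : Type*} [Group G] [Finite G]

theorem ab_bound {H : Subgroup G} (hH : IsMulCommutative H) {χ : G → ℂ} (hχ : IsChar ⊤ χ)
    {n q r : ℕ} (hn : Nat.card H = n) (h1 : χ 1 = (n * q + r : ℕ)) :
    (r : ℝ) * (n - r) ≤ ∑ x ∈ fs ((H : Set G) \ {1}), ‖χ x‖ ^ 2 := by
  have h2 := hχ.Res (le_top (a := H))
  obtain ⟨m, h3, h4⟩ := h2.exists_coeff
  have h5 : ((n * q + r : ℕ) : ℂ) = ∑ ψ ∈ Irr H, (m ψ : ℂ) := by
    rw [← h1, ← Res_of_mem χ (A := H) (one_mem H), h4, Finset.sum_apply]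
    exact sum_congr rfl fun ψ h => by simp [irr_one_of_comm hH h]
  have h6 : ((n : ℝ) * q + r) = ∑ ψ ∈ Irr H, (m ψ : ℝ) := by exact_mod_cast h5
  have h7 : CF.nrm H (Res (H : Set G) χ) = ∑ ψ ∈ Irr H, (m ψ : ℝ) ^ 2 := by
    rw [nrm_eq_sum h2.cf]
    exact sum_congr rfl fun ψ h => by rw [h3 ψ h]; simp
  have h8 : (0 : ℝ) ≤ ∑ ψ ∈ Irr H, ((m ψ : ℝ) ^ 2 - (2 * q + 1) * m ψ + q * (q + 1)) :=
    sum_nonneg fun ψ _ => by
      rcases le_or_gt (m ψ) q with h | h
      · have : (m ψ : ℝ) ≤ q := by exact_mod_cast h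
        nlinarith
      · have : (q : ℝ) + 1 ≤ m ψ := by exact_mod_cast h
        nlinarith
  rw [sum_add_distrib, sum_sub_distrib, ← mul_sum, ← h6, ← h7, sum_const, card_Irr_of_comm hH, hn,
    nrm_eq, sum_fs_congr (g := fun x => ‖χ x‖ ^ 2) (fun x hx => by rw [Res_of_mem χ hx]),
    sum_fs_diff (A := {1}) (by simp), hn, nsmul_eq_mul] at h8
  have h9 : ∑ x ∈ fs ({1} : Set G), ‖χ x‖ ^ 2 = ((n : ℝ) * q + r) ^ 2 := by
    rw [← coe_singleton, fs_coe, sum_singleton, h1, Complex.norm_natCast]; push_cast; rfl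
  have h10 : (0 : ℝ) < n := hn ▸ card_pos' H
  rw [h9] at h8
  have := mul_nonneg h10.le h8
  rw [mul_add, mul_sub, mul_inv_cancel_left₀ h10.ne'] at this
  nlinarith

theorem cyc_count {P : Subgroup G} {p : ℕ} (hp : p.Prime) (hP : Nat.card P = p) {f : G → ℝ}
    (h0 : ∀ g, 0 ≤ f g) (hf : ∀ t g, f (t * g * t⁻¹) = f g) :
    (Nat.card G : ℝ) * ∑ x ∈ fs ((P : Set G) \ {1}), f x ≤
      Nat.card (normalizer (P : Set G)) * ∑ x ∈ fs {g : G | orderOf g = p}, f x := by
  classical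
  have := Fintype.ofFinite G
  have h1 : ∀ x ∈ P, x ≠ 1 → orderOf x = p := fun x hx h =>
    (hp.eq_one_or_self_of_dvd _ (hP ▸ P.orderOf_dvd_natCard hx)).resolve_left
      (mt orderOf_eq_one_iff.1 h)
  have h2 : ∀ t : G, ∑ x ∈ fs ((P : Set G) \ {1}), f x =
      ∑ x ∈ fs {g : G | orderOf g = p}, if t⁻¹ * x * t ∈ P then f x else 0 := fun t => by
    rw [← sum_filter]
    refine sum_bij (fun x _ => t * x * t⁻¹) (fun x hx => ?_) (fun x _ y _ h => by simpa using h)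
      (fun y hy => ?_) fun x _ => (hf t x).symm
    · simp only [mem_fs, Set.mem_diff, SetLike.mem_coe, Set.mem_singleton_iff] at hx
      simp only [mem_filter, mem_fs, Set.mem_setOf_eq]
      exact ⟨by rw [← h1 x hx.1 hx.2]; exact MulEquiv.orderOf_eq (MulAut.conj t) x,
        by simpa [mul_assoc] using hx.1⟩
    · simp only [mem_filter, mem_fs, Set.mem_setOf_eq] at hy
      refine ⟨t⁻¹ * y * t, ?_, by group⟩
      simp only [mem_fs, Set.mem_diff, SetLike.mem_coe, Set.mem_singleton_iff]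
      refine ⟨hy.2, fun h => hp.ne_one ?_⟩
      rw [← hy.1, show y = t * (t⁻¹ * y * t) * t⁻¹ by group, h]; simp
  have h3 : ∀ x, orderOf x = p → ∀ t, t⁻¹ * x * t ∈ P → zpowers (t⁻¹ * x * t) = P := fun x hx t h =>
    eq_of_le_of_card_ge (zpowers_le.2 h) (by
      rw [Nat.card_zpowers, hP, ← hx]
      exact (MulEquiv.orderOf_eq (MulAut.conj t⁻¹) x).ge.trans (by simp))
  rw [Nat.card_eq_fintype_card, ← card_univ, ← nsmul_eq_mul, ← sum_const,
    sum_congr rfl fun t _ => h2 t, sum_comm, mul_sum]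
  refine sum_le_sum fun x hx => ?_
  rw [← sum_filter, sum_const, nsmul_eq_mul]
  refine mul_le_mul_of_nonneg_right (Nat.cast_le.2 ?_) (h0 x)
  rcases (univ.filter fun t : G => t⁻¹ * x * t ∈ P).eq_empty_or_nonempty with h | ⟨s, hs⟩
  · rw [h]; exact Nat.zero_le _
  rw [← card_fs_sub]
  refine card_le_card_of_injOn (fun t => s⁻¹ * t) (fun t ht => ?_) fun a _ b _ h => by simpa using h
  have hx' : orderOf x = p := by simpa using hx
  have e1 := h3 x hx' s (mem_filter.1 hs).2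
  have e2 := h3 x hx' t (mem_filter.1 ht).2
  simp only [mem_coe, mem_fs, SetLike.mem_coe]
  refine H24.mem_normalizer_of_conj (fun a ha => ?_) fun a ha => ?_
  · rw [← e2] at ha
    obtain ⟨k, rfl⟩ := ha
    rw [← e1]
    exact ⟨k, by simp only [← conj_zpow]; group⟩
  · rw [← e1] at ha
    obtain ⟨k, rfl⟩ := ha
    rw [← e2]
    exact ⟨k, by
      rw [show t⁻¹ * x * t = (s⁻¹ * t)⁻¹ * (s⁻¹ * x * s) * (s⁻¹ * t)⁻¹⁻¹ by group]
      simp only [conj_zpow]; rw [inv_inv]⟩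

/-- sum of `‖χ x‖²` over the elements of order `r` -/
noncomputable def ordS (χ : G → ℂ) (r : ℕ) : ℝ := ∑ x ∈ fs {g : G | orderOf g = r}, ‖χ x‖ ^ 2

theorem ordS_nonneg (χ : G → ℂ) (r : ℕ) : 0 ≤ ordS χ r := sum_nonneg fun _ _ => sq_nonneg _

theorem ordS_one (χ : G → ℂ) {d : ℕ} (h : χ 1 = d) : ordS χ 1 = (d : ℝ) ^ 2 := by
  simp only [ordS, orderOf_eq_one_iff, Set.setOf_eq_eq_singleton]
  rw [← coe_singleton, fs_coe, sum_singleton, h, Complex.norm_natCast]

theorem sum_ordS_le {χ : G → ℂ} (hχ : χ ∈ Irr ⊤) (S : Finset ℕ) {B : Set G}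
    (hB : ∀ x ∈ B, orderOf x ∉ S) :
    ∑ r ∈ S, ordS χ r + ∑ x ∈ fs B, ‖χ x‖ ^ 2 ≤ Nat.card G := by
  classical
  have h1 := nrm_irr hχ
  rw [nrm_eq, inv_mul_eq_one₀ (card_pos' _).ne', card_top] at h1
  have h2 : ∑ r ∈ S, ordS χ r = ∑ x ∈ fs {g : G | orderOf g ∈ S}, ‖χ x‖ ^ 2 := by
    rw [← sum_fiberwise_of_maps_to (s := fs {g : G | orderOf g ∈ S}) (g := orderOf) (t := S)
      (fun x hx => by simpa using hx)]
    refine sum_congr rfl fun r hr => sum_congr ?_ fun _ _ => rfl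
    ext x
    simp only [mem_fs, Set.mem_setOf_eq, mem_filter]
    exact ⟨fun h => ⟨h ▸ hr, h⟩, And.right⟩
  rw [h2, ← sum_fs_union (A := {g : G | orderOf g ∈ S}) (Set.disjoint_right.2 hB), h1]
  exact sum_le_sum_of_subset_of_nonneg (fs_mono fun _ _ => mem_top _) fun _ _ _ => sq_nonneg _

theorem dz_bound {χ : G → ℂ} (hχ : IsChar ⊤ χ) (h0 : ∀ g, 2 ∣ orderOf g → χ g = 0)
    {P V : Subgroup G} {r k m q s : ℕ} (hr : r.Prime) (hr2 : r ≠ 2) (hP : Nat.card P = r)
    (hV : Nat.card V = 2 ^ k) (hc : IsMulCommutative V) (hPV : P ≤ centralizer (V : Set G))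
    (hm : Nat.card (normalizer (P : Set G)) ≤ m) (h1 : χ 1 = (r * 2 ^ k * q + s : ℕ))
    (hs : s ≤ r * 2 ^ k) :
    (Nat.card G : ℝ) * (s * (r * 2 ^ k - s)) ≤ m * ordS χ r := by
  have := Fact.mk hr
  have h2 : IsMulCommutative P := (isCyclic_of_prime_card hP).isMulCommutative
  have h3 := H16.comm_sup h2 hc hPV
  have h4 : Nat.card ↥(P ⊔ V) = r * 2 ^ k := by
    rw [H16.card_sup_of_inf_bot (.inl (hPV.trans (centralizer_le_normalizer _)))
      (inf_eq_bot_of_coprime (by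
        rw [hP, hV]; exact ((Nat.coprime_primes hr Nat.prime_two).2 hr2).pow_right k)), hP, hV]
  have h5 := ab_bound h3 hχ h4 h1
  rw [← sum_fs_subset (A := (P : Set G) \ {1})
    (Set.diff_subset_diff_left (SetLike.coe_subset_coe.2 (le_sup_left : P ≤ P ⊔ V)))
    fun x hx hx' => ?_] at h5
  · push_cast at h5
    refine (mul_le_mul_of_nonneg_left h5 (Nat.cast_nonneg _)).trans ((cyc_count hr hP
      (fun _ => sq_nonneg _) fun t g => by rw [cf_conj hχ.cf g (mem_top t)]).trans ?_)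
    exact mul_le_mul_of_nonneg_right (Nat.cast_le.2 hm) (ordS_nonneg _ _)
  · rw [h0 x ?_]; · simp
    by_contra h6
    refine hx' ⟨?_, hx.2⟩
    obtain ⟨a, ha, b, hb, rfl⟩ := (H24.mem_sup_of_le_normalizer
      ((le_centralizer_iff.1 hPV).trans (centralizer_le_normalizer _))).1 hx.1
    have h7 : (a * b) ^ 2 ^ k ∈ P := by
      rw [Commute.mul_pow (hPV ha b hb).symm, ← hV, pow_card_eq_one' (x := (⟨b, hb⟩ : V)) |>
        congrArg Subtype.val |> (show b ^ Nat.card V = 1 from ·), mul_one]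
      exact pow_mem ha _
    exact zpowers_le.2 h7 (mem_zpowers_pow_iff.2
      (((Nat.prime_two.coprime_iff_not_dvd).2 h6).pow_left k))

theorem dz_bound0 {χ : G → ℂ} (hχ : IsChar ⊤ χ) (h0 : ∀ g, 2 ∣ orderOf g → χ g = 0)
    {P : Subgroup G} {r m q s : ℕ} (hr : r.Prime) (hr2 : r ≠ 2) (hP : Nat.card P = r)
    (hm : Nat.card (normalizer (P : Set G)) ≤ m) (h1 : χ 1 = (r * q + s : ℕ)) (hs : s ≤ r) :
    (Nat.card G : ℝ) * (s * (r - s)) ≤ m * ordS χ r := by
  simpa using dz_bound (V := ⊥) (k := 0) (q := q) (s := s) hχ h0 hr hr2 hP (by simp) inferInstance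
    (fun _ _ _ h => by simp [mem_bot.1 h]) hm (by simpa using h1) (by simpa using hs)

theorem card_nrm_le {P : Subgroup G} {r : ℕ} (hr : r.Prime) (hP : Nat.card P = r) :
    Nat.card (normalizer (P : Set G)) ∣ Nat.card (centralizer (P : Set G)) * (r - 1) := by
  have := Fact.mk hr
  have := isCyclic_of_prime_card hP
  rw [← CF.card_mul_relIndex (centralizer_le_normalizer (P : Set G))]
  refine Nat.mul_dvd_mul_left _ ?_
  rw [relIndex, ← normalizerMonoidHom_ker, index_ker, ← Nat.totient_prime hr, ← hP,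
    ← IsCyclic.card_mulAut]
  exact card_subgroup_dvd_card _

theorem idx_nrm {P : Subgroup G} {r : ℕ} (hr : r.Prime) (hP : Nat.card P = r)
    (h : ¬ r ^ 2 ∣ Nat.card G) : (normalizer (P : Set G)).index % r = 1 := by
  have := Fact.mk hr
  have h1 : (Nat.card G).factorization r = 1 := le_antisymm (by
    by_contra h2
    exact h ((hr.pow_dvd_iff_le_factorization Nat.card_pos.ne').2 (by omega)))
    ((hr.dvd_iff_one_le_factorization Nat.card_pos.ne').1 (hP ▸ card_subgroup_dvd_card P))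
  have h2 := card_sylow_modEq_one r G
  rw [(Sylow.ofCard P (by rw [h1, pow_one, hP])).card_eq_index_normalizer] at h2
  exact Eq.trans h2 (Nat.mod_eq_of_lt hr.one_lt)

theorem nrm_mod {P : Subgroup G} {r c : ℕ} (hr : r.Prime) (hP : Nat.card P = r)
    (hG : Nat.card G = r * c) (hc : ¬ r ∣ c) :
    ∃ n, Nat.card (normalizer (P : Set G)) = r * n ∧ n % r = c % r := by
  obtain ⟨n, hn⟩ : r ∣ Nat.card (normalizer (P : Set G)) :=
    hP ▸ card_dvd_of_le (le_normalizer (H := P))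
  have h1 := idx_nrm hr hP (by
    rw [hG, pow_two]; exact fun h => hc (Nat.dvd_of_mul_dvd_mul_left hr.pos h))
  have h2 := (normalizer (P : Set G)).card_mul_index
  rw [hn, hG, mul_assoc, Nat.mul_right_inj hr.ne_zero] at h2
  exact ⟨n, hn, by rw [← h2, Nat.mul_mod, h1, mul_one, Nat.mod_mod]⟩

theorem exists_deg_of_vanish {χ : G → ℂ} (hχ : IsIrrCharacter G χ)
    (h0 : ∀ g, 2 ∣ orderOf g → χ g = 0) {a c : ℕ} (hG : Nat.card G = 2 ^ a * c) (hc : ¬ 2 ∣ c) :
    ∃ k : ℕ, χ 1 = (2 ^ a * k : ℕ) ∧ k ∣ c := by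
  have h1 := H19.vd_of_vanish (p := 2) (χ := ⟨χ, hχ⟩) h0
  have h2 := deg_dvd (⟨χ, hχ⟩ : IrrCharacter G)
  have h3 : c ≠ 0 := by rintro rfl; simp at hc
  rw [hG, Nat.factorization_mul (by simp) h3, Nat.prime_two.factorization_pow, Finsupp.add_apply,
    Finsupp.single_eq_same, Nat.factorization_eq_zero_of_not_dvd hc, add_zero] at h1
  obtain ⟨k, hk⟩ := (Nat.prime_two.pow_dvd_iff_le_factorization
    (H19.deg_ne_zero (⟨χ, hχ⟩ : IrrCharacter G))).2 h1.ge
  rw [hG, hk] at h2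
  exact ⟨k, hk ▸ (H19.cast_deg (⟨χ, hχ⟩ : IrrCharacter G)).symm,
    Nat.dvd_of_mul_dvd_mul_left (by simp) h2⟩

end
end H18
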