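import Cfsg.Agent.H18.OneB
import Cfsg.Agent.H27.LOut
import Cfsg.Agent.H27.MSub2
import Cfsg.Agent.H13.CM
import Cfsg.Agent.S5604

/-! The groups `M22` and `M24` have a single `2`-block. -/

set_option autoImplicit false

namespace H18
noncomputable section
open MulAction Cfsg H27 Subgroup H10 H20
open H13 (x5 x5_acts)
open scoped Pointwise

theorem sq_fix {gs : List MM} {Ns : List Net} (h : ActsL 24 GE.e gs Ns) {F : Nat}
    (hc : ∀ p < 24, F.testBit p = true → ∀ q < 24, p = q ∨ (∃ N ∈ Ns, N.fn p = q ∧ N.fn q = p) ∨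
      ∃ N ∈ Ns, ¬ (N.fn p = p ↔ N.fn q = q)) {y : MM} (hy : ∀ a ∈ gs, a * y = y * a) :
    ∀ p ∈ GE.fs F, (y * y) • p = p := by
  intro p hp
  obtain ⟨p, h1, rfl⟩ : ∃ i < 24, GE.e i = p := ⟨_, GE.ix_lt p, GE.e_ix p⟩
  obtain ⟨q, h2, h3⟩ : ∃ i < 24, GE.e i = y • GE.e p := ⟨_, GE.ix_lt _, GE.e_ix _⟩
  rcases hc p h1 ((GE.e_mem_fs h1).1 hp) q h2 with rfl | ⟨N, hN, h4, h5⟩ | ⟨N, hN, h4⟩
  · rw [mul_smul, ← h3, ← h3]
  · obtain ⟨a, ha, b⟩ := h.exists_left hN
    rw [mul_smul, ← h3, ← h4, ← b.act p h1, ← mul_smul, ← hy a ha, mul_smul, ← h3, b.act q h2, h5]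
  · obtain ⟨a, ha, b⟩ := h.exists_left hN
    refine absurd ?_ h4
    rw [← GE.injOn.eq_iff (Net.fn_lt b.ok h1) h1, ← GE.injOn.eq_iff (Net.fn_lt b.ok h2) h2,
      ← b.act p h1, ← b.act q h2, h3, ← mul_smul, hy a ha, mul_smul, smul_left_cancel_iff]

theorem eq_one_of_sq {G : Type*} [Group G] {y : G} (h : y * y = 1) (h2 : ¬ 2 ∣ orderOf y) : y = 1 :=
  orderOf_eq_one_iff.1 ((Nat.prime_two.eq_one_or_self_of_dvd _
    (orderOf_dvd_of_pow_eq_one (by rwa [pow_two]))).resolve_right fun e => h2 e.symm.dvd)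

def qON : List Net := [(.cons 1 0x451400 (.cons 2 0x10010 (.cons 4 0x30b00 (.cons 8 0x19 (.cons 16 0x99 (.cons 8 0x19 (.cons 4 0x800 (.cons 2 0x10000 (.cons 1 0x451000 .nil))))))))),
  (.cons 1 0x4140 (.cons 2 0x103300 (.cons 4 0xe0800 (.cons 8 0x53 (.cons 16 0xc3 (.cons 8 0x83 (.cons 4 0xe0400 (.cons 2 0x3300 (.cons 1 0x45000 .nil))))))))),
  (.cons 1 0x414040 (.cons 2 0x121310 (.cons 4 0x40500 (.cons 8 0x20 (.cons 16 0xa0 (.cons 8 0x20 (.cons 2 0x100000 (.cons 1 0x414040 .nil)))))))),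
  (.cons 1 0x154500 (.cons 2 0x102100 (.cons 4 0x10c00 (.cons 8 0xdf (.cons 16 0xf (.cons 8 0xf (.cons 4 0x10c00 (.cons 2 0x102100 (.cons 1 0x54500 .nil))))))))),
  (.cons 1 0x115000 (.cons 2 0x330300 (.cons 4 0x50000 (.cons 8 0x4f (.cons 16 0x9f (.cons 8 0xf (.cons 4 0x50000 (.cons 2 0x210000 (.cons 1 0x114000 .nil))))))))),
  (.cons 1 0x14440 (.cons 2 0x300300 (.cons 4 0xa0100 (.cons 8 0x64 (.cons 16 0x74 (.cons 8 0x64 (.cons 4 0x20000 (.cons 2 0x300100 (.cons 1 0x14400 .nil))))))))),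
  (.cons 1 0x40100 (.cons 2 0x3000 (.cons 4 0x70900 (.cons 8 0xd6 (.cons 16 0x6 (.cons 8 0x6 (.cons 4 0x60900 (.cons 2 0x1000 (.cons 1 0x100 .nil))))))))),
  (.cons 1 0x440000 (.cons 2 0x320200 (.cons 4 0xa0300 (.cons 8 0x9d (.cons 16 0x4d (.cons 8 0xd (.cons 4 0x80100 (.cons 2 0x320200 (.cons 1 0x440000 .nil))))))))),
  (.cons 1 0x151000 (.cons 2 0x333100 (.cons 4 0x90000 (.cons 8 0x4a (.cons 16 0x9a (.cons 8 0xa (.cons 4 0x90000 (.cons 2 0x231000 (.cons 1 0x151000 .nil))))))))),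
  (.cons 1 0x110140 (.cons 2 0x31100 (.cons 4 0x50900 (.cons 8 0xfe (.cons 16 0x2e (.cons 8 0x2e (.cons 4 0x40900 (.cons 2 0x31100 (.cons 1 0x110140 .nil))))))))),
  (.cons 1 0x401140 (.cons 2 0x21200 (.cons 4 0xc0c00 (.cons 8 0xab (.cons 16 0x7b (.cons 8 0x2b (.cons 4 0xc0800 (.cons 2 0x21200 (.cons 1 0x401140 .nil))))))))),
  (.cons 1 0x45100 (.cons 2 0x220210 (.cons 4 0x60400 (.cons 8 0x60 (.cons 16 0xf0 (.cons 8 0x30 (.cons 4 0x30100 (.cons 2 0x331100 (.cons 1 0x45100 .nil))))))))),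
  (.cons 1 0x50540 (.cons 2 0x320110 (.cons 4 0xd0f00 (.cons 8 0xd9 (.cons 16 0x9 (.cons 8 0x9 (.cons 4 0x90d00 (.cons 2 0x300000 (.cons 1 0x50540 .nil))))))))),
  (.cons 1 0x500400 (.cons 2 0x100200 (.cons 4 0xb0300 (.cons 8 0xe (.cons 16 0xde (.cons 8 0xe (.cons 4 0xb0800 (.cons 2 0x302000 (.cons 1 0x500400 .nil))))))))),
  (.cons 1 0x511140 (.cons 2 0x223200 (.cons 4 0xa0a00 (.cons 8 0x4c (.cons 16 0x9c (.cons 8 0xc (.cons 4 0x80800 (.cons 2 0x223200 (.cons 1 0x511040 .nil)))))))))]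
def qSN : List Net := [(.cons 1 0x410054 (.cons 2 0x300002 (.cons 4 0x90601 (.cons 8 0x6 (.cons 16 0x33 (.cons 8 0x2 (.cons 4 0x600 (.cons 2 0x300000 (.cons 1 0x410014 .nil))))))))),
  (.cons 1 0x45100 (.cons 2 0x123320 (.cons 4 0xd0e08 (.cons 8 0x87 (.cons 16 0x97 (.cons 8 0x87 (.cons 4 0xd0100 (.cons 2 0x20 (.cons 1 0x45100 .nil))))))))),
  (.cons 1 0x401011 (.cons 2 0x233000 (.cons 4 0x40800 (.cons 8 0x51 (.cons 16 0x6d (.cons 8 0x41 (.cons 4 0x40000 (.cons 2 0x233000 (.cons 1 0x401010 .nil))))))))),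
  (.cons 1 0x515045 (.cons 2 0x210220 (.cons 4 0xc090c (.cons 8 0x43 (.cons 16 0xff (.cons 8 0xb (.cons 4 0xa00 (.cons 2 0x120110 (.cons 1 0x40510 .nil))))))))),
  (.cons 1 0x45100 (.cons 2 0x220210 (.cons 4 0x60400 (.cons 8 0x60 (.cons 16 0xf0 (.cons 8 0x30 (.cons 4 0x30100 (.cons 2 0x331100 (.cons 1 0x45100 .nil))))))))),
  (.cons 1 0x55451 (.cons 2 0x333303 (.cons 4 0xa0900 (.cons 8 0xd0 (.cons 16 0xf6 (.cons 8 0xe0 (.cons 4 0x50600 (.cons 2 0x213300 (.cons 1 0x500104 .nil)))))))))]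
theorem qO_acts : ActsL 24 GE.e (qON.map mm) qON := actsL_mm (by decide +kernel)
theorem qS_acts : ActsL 24 GE.e (qSN.map mm) qSN := actsL_mm (by decide +kernel)

theorem cza_a : CZa 2 z2a (fixM oct0) := by
  refine ⟨IsPGroup.of_card (n := 4) card_fix_oct0, mem_nrm_of_le' fun g hg a ha p hp => ?_,
    fun y _ hy h => eq_one_of_sq (eq_one_of_refChk (F := 0x7dbfd0)
      (Os := [0xe91104, 0xecc040, 0xf08320, 0xf210c0, 0xf50018, 0xf82402]) (by decide +kernel)
      (sq_fix qO_acts (by decide +kernel) fun a ha =>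
        hy a (qO_acts.mem_fixM (by decide +kernel) a ha))) h⟩
  have h1 := mem_stabilizer_iff.1 (cent_z2a_le (inv_mem hg))
  rw [mul_smul, mul_smul, ha, smul_inv_smul]
  rw [← eO_zero, ← h1]
  exact Finset.smul_mem_smul_finset (eO_zero ▸ hp)

theorem cza_b : CZa 2 z2b (cl (qSN.map mm)) :=
  ⟨fun x => ⟨1, Subtype.ext (qS_acts.elemAb (K := 5) (p := 2) (fun _ => MM_faithful)
      (by decide +kernel) x x.2)⟩,
    cent_z2b_le.trans (cl_gS.ge.trans (gS_acts.norm (K := 5) (fun _ => MM_faithful) qS_acts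
      [[[0, 6, 8, 10], [0, 6], [2, 4, 6, 8], [0, 2, 4, 6, 8, 10], [2, 8, 10], [0, 2]], [[0, 4, 6, 8], [8], [0, 4, 8, 10], [6, 8], [0, 2, 4, 8], [2, 4, 10]]] (by decide +kernel))),
    fun y _ hy h => eq_one_of_sq (MM_faithful fun i _ => sq_fix qS_acts (F := 16777215)
      (by decide +kernel) (fun a ha => hy a (mem_cl ha)) _ (GE.fs_all ▸ Finset.mem_univ _)) h⟩

theorem CZa.conj {p : ℕ} {G : Type*} [Group G] {z : G} {A : Subgroup G} (h : CZa p z A) (k : G) :
    CZa p (k * z * k⁻¹) (A.comap (MulAut.conj k⁻¹).toMonoidHom) :=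
  CZa.comap _ (MulAut.conj k⁻¹).injective (by simpa [mul_assoc] using h)
    fun a _ => (MulAut.conj k⁻¹).surjective a

theorem czp24 : CZp 2 MM := fun _ hz => by
  rcases cls2 hz with ⟨k, rfl⟩ | ⟨k, rfl⟩
  exacts [⟨_, cza_a.conj k⟩, ⟨_, cza_b.conj k⟩]

theorem czp22 {G : Type*} [Group G] (f : G →* MM) (hf : Function.Injective f) (h : f.range = H22) :
    CZp 2 G := fun z hz => by
  have h1 : f z ∈ H22 := h ▸ ⟨z, rfl⟩
  obtain ⟨k, hk⟩ := conj_z2a (g := f z) (by rwa [orderOf_injective f hf])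
    (Finset.card_ne_zero.2 ⟨_, mem_fixF.2 h1.1⟩)
  refine ⟨_, CZa.comap f hf (hk ▸ cza_a.conj k) (h ▸ fun a ha => ?_)⟩
  have h2 : ∀ p, f z • p = p → a • p = p := fun p hp => by
    rw [← mem_fixF, hk, fixF_conj, fix_z2a, eO_zero, ← Finset.inv_smul_mem_iff] at hp
    have := ha _ hp
    simpa [mul_smul] using this
  exact ⟨h2 _ h1.1, h2 _ h1.2⟩

def k5N : Net := (.cons 1 0x545040 (.cons 2 0x232033 (.cons 4 0x20c05 (.cons 8 0xc9 (.cons 16 0xfc (.cons 8 0xa4 (.cons 4 0x100 (.cons 2 0x111100 (.cons 1 0x510000 .nil)))))))))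
def y5N : Net := (.cons 1 0x110144 (.cons 2 0x321212 (.cons 4 0x60506 (.cons 8 0x1 (.cons 16 0x6d (.cons 8 0x2d (.cons 4 0xa0e00 (.cons 2 0x300020 (.cons 1 0x151000 .nil)))))))))
def v1N : Net := (.cons 1 0x544114 (.cons 2 0x102101 (.cons 4 0x802 (.cons 8 0x96 (.cons 16 0x6f (.cons 8 0x21 (.cons 4 0x20a00 (.cons 2 0x111000 (.cons 1 0x101100 .nil)))))))))
def v2N : Net := (.cons 1 0x100011 (.cons 2 0x301330 (.cons 4 0x3040e (.cons 8 0xd (.cons 16 0xff (.cons 8 0xc2 (.cons 4 0xd0400 (.cons 2 0x302330 (.cons 1 0x405500 .nil)))))))))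
theorem k5_acts : Acts 24 GE.e (mm k5N) k5N := acts_mm (by decide +kernel)
theorem y5_acts : Acts 24 GE.e (mm y5N) y5N := acts_mm (by decide +kernel)
theorem v1_acts : Acts 24 GE.e (mm v1N) v1N := acts_mm (by decide +kernel)
theorem v2_acts : Acts 24 GE.e (mm v2N) v2N := acts_mm (by decide +kernel)
theorem card_y5 : Nat.card (zpowers (mm y5N)) = 5 := by
  rw [Nat.card_zpowers, y5_acts.mm_order (p := 5) (by norm_num) (by decide +kernel)]

theorem cent_zp {G : Type*} [Group G] (x : G) : centralizer (zpowers x : Set G) = centralizer {x} := by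
  rw [zpowers_eq_closure, centralizer_closure]

theorem nrm_y5 : Nat.card (normalizer (zpowers (mm y5N) : Set MM)) ≤ 240 := by
  have h1 : mm y5N = mm k5N * x5 * (mm k5N)⁻¹ := by
    rw [eq_mul_inv_iff_mul_eq]
    simpa using ActsL.prod_eq_mm (.cons y5_acts (.cons k5_acts .nil))
      (.cons k5_acts (.cons x5_acts .nil)) (by decide +kernel)
  have h2 := (CjRel.zpowers (mm k5N) x5).cent.card
  rw [← h1, cent_zp x5] at h2
  have h3 := Nat.le_of_dvd (Nat.mul_pos Nat.card_pos (by norm_num)) (card_nrm_le (by norm_num) card_y5)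
  have := H13.card_cent_x5
  omega

theorem four_y5 : ∃ V : Subgroup MM, Nat.card V = 2 ^ 2 ∧ IsMulCommutative V ∧
    zpowers (mm y5N) ≤ centralizer (V : Set MM) ∧ ∃ a ∈ V, ∃ b ∈ V, a ∉ H22 ∧ b ∉ H22 ∧ a * b ∉ H22 := by
  have o1 := v1_acts.mm_order (p := 2) (by norm_num) (by decide +kernel)
  have o2 := v2_acts.mm_order (p := 2) (by norm_num) (by decide +kernel)
  have c : zpowers (mm v1N) ≤ centralizer (zpowers (mm v2N) : Set MM) := by
    rw [cent_zp, zpowers_le]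
    exact ActsL.mem_cent (.cons v1_acts .nil) v2_acts (by decide +kernel) _ (by simp)
  have n : ∀ {g N}, Acts 24 GE.e g N → N.fn 23 ≠ 23 → g ∉ H22 := fun a h hg =>
    h (GE.injOn (Net.fn_lt a.ok (by norm_num)) (by norm_num) ((a.act 23 (by norm_num)).symm.trans hg.1))
  have n3 : mm v1N * mm v2N ∉ H22 := n (v1_acts.mul v2_acts) (by decide +kernel)
  refine ⟨zpowers (mm v1N) ⊔ zpowers (mm v2N), ?_, H16.comm_sup inferInstance inferInstance c, ?_,
    _, mem_sup_left (mem_zpowers _), _, mem_sup_right (mem_zpowers _), n v1_acts (by decide +kernel),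
    n v2_acts (by decide +kernel), n3⟩
  · rw [H16.card_sup_of_inf_bot (.inl (c.trans (centralizer_le_normalizer _))) ?_, Nat.card_zpowers,
      Nat.card_zpowers, o1, o2]
    · rfl
    rcases (zpowers (mm v1N) ⊓ zpowers (mm v2N)).bot_or_exists_ne_one with h | ⟨x, ⟨h1, h2⟩, h4⟩
    · exact h
    have e : ∀ {a x : MM}, orderOf a = 2 → x ∈ zpowers a → x ≠ 1 → x = a := fun o h h' => by
      rw [mem_zpowers_iff_mem_range_orderOf, o] at h
      obtain ⟨i, hi, rfl⟩ := Finset.mem_image.1 h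
      have := Finset.mem_range.1 hi
      interval_cases i
      · exact absurd (pow_zero _) h'
      · exact pow_one _
    refine absurd ?_ n3
    rw [← e o2 h2 h4, e o1 h1 h4, ← pow_two, ← o1, pow_orderOf_eq_one]
    exact one_mem _
  · rw [le_centralizer_iff, cent_zp, sup_le_iff, zpowers_le, zpowers_le]
    have := ActsL.mem_cent (.cons v1_acts (.cons v2_acts .nil)) y5_acts (by decide +kernel)
    exact ⟨this _ (by simp), this _ (by simp)⟩

theorem cent_self {g : MM} {r : ℕ} (h : ∀ σ, σ * g = g * σ → ∃ i < r, σ = g ^ i) :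
    centralizer (zpowers g : Set MM) = zpowers g := by
  refine le_antisymm (fun σ hσ => ?_) (le_centralizer _)
  obtain ⟨i, -, rfl⟩ := h σ (hσ g (mem_zpowers g)).symm
  exact pow_mem (mem_zpowers g) i

theorem card_y23 : Nat.card (zpowers (mm yN)) = 23 := by
  rw [Nat.card_zpowers, yN_acts.mm_order (p := 23) (by norm_num) (by decide +kernel)]
theorem card_b11 : Nat.card (zpowers (mm bN)) = 11 := by
  rw [Nat.card_zpowers, bN_acts.mm_order (p := 11) (by norm_num) (by decide +kernel)]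

theorem nrm_y23 : Nat.card (normalizer (zpowers (mm yN) : Set MM)) ≤ 253 := by
  have h1 := card_nrm_le (by norm_num) card_y23
  rw [cent_self fun _ => yN_acts.cent_mm (r := 23) (q := 0) (O := 0x149f) (Os := []) (by decide +kernel),
    card_y23] at h1
  obtain ⟨n, h2, h3⟩ := nrm_mod (c := 10644480) (by norm_num) card_y23 card_MM (by norm_num)
  have := Nat.le_of_dvd (by norm_num) h1
  omega

theorem nrm_b11 : Nat.card (normalizer (zpowers (mm bN) : Set MM)) ≤ 110 := by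
  have h1 := card_nrm_le (by norm_num) card_b11
  rw [cent_self fun _ => bN_acts.cent_mm (r := 11) (q := 1) (O := 0x149f) (Os := [0x843039, 0x846245,
    0x84805e, 0x85028b, 0x851614, 0x87210c, 0x8d0151, 0x942312, 0xa53042, 0xc41348])
    (by decide +kernel), card_b11] at h1
  exact Nat.le_of_dvd (by norm_num) h1

theorem nodz24 {χ : MM → ℂ} (hχ : IsIrrCharacter MM χ) (h0 : ∀ g, 2 ∣ orderOf g → χ g = 0) :
    False := by
  obtain ⟨k, h1, h2⟩ := exists_deg_of_vanish (a := 10) (c := 239085) hχ h0 card_MM (by norm_num)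
  have h3 := CF.mem_Irr_top.2 hχ
  have h4 := CF.irr_char h3
  have h5 := sum_ordS_le h3 {1, 5, 7, 11, 23} (B := ∅) (by simp)
  obtain ⟨V, v1, v2, v3, -⟩ := four_y5
  have := Fact.mk (by norm_num : Nat.Prime 7)
  obtain ⟨x, hx⟩ := exists_prime_orderOf_dvd_card' (G := MM) 7 (by rw [card_MM]; norm_num)
  have s1 : Nat.card (zpowers x) = 7 := by rw [Nat.card_zpowers, hx]
  obtain ⟨s2, s3, -⟩ := Cfsg.Agent.S5604.result _ s1
  obtain ⟨t, ht⟩ := exists_prime_orderOf_dvd_card' (G := centralizer (zpowers x : Set MM)) 2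
    (by rw [s3]; norm_num)
  have b5 := dz_bound (q := 1024 * k / 20) (s := 1024 * k % 20) h4 h0 (by norm_num) (by norm_num)
    card_y5 v1 v2 v3 nrm_y5 (by rw [h1]; congr 1; omega) (by omega)
  have b7 := dz_bound (V := zpowers t.1) (k := 1) (q := 1024 * k / 14) (s := 1024 * k % 14) h4 h0
    (by norm_num) (by norm_num) s1 (by rw [Nat.card_zpowers, orderOf_coe, ht]; rfl) inferInstance
    (le_centralizer_iff.1 (zpowers_le.2 t.2)) s2.le (by rw [h1]; congr 1; omega) (by omega)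
  have b11 := dz_bound0 (q := 1024 * k / 11) (s := 1024 * k % 11) h4 h0 (by norm_num) (by norm_num)
    card_b11 nrm_b11 (by rw [h1]; congr 1; omega) (by omega)
  have b23 := dz_bound0 (q := 1024 * k / 23) (s := 1024 * k % 23) h4 h0 (by norm_num) (by norm_num)
    card_y23 nrm_y23 (by rw [h1]; congr 1; omega) (by omega)
  rw [CF.sum_fs_eq_zero (by simp)] at h5
  simp only [Finset.mem_insert, Finset.mem_singleton, OfNat.one_ne_ofNat, or_self, not_false_eq_true,
    Finset.sum_insert, Nat.reduceEqDiff, Finset.sum_singleton, ordS_one χ h1] at h5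
  rw [card_MM] at h5 b5 b7 b11 b23
  have n5 := ordS_nonneg χ 5
  have n7 := ordS_nonneg χ 7
  have n11 := ordS_nonneg χ 11
  have n23 := ordS_nonneg χ 23
  have hk : k < 16 := by
    by_contra h
    have : (16 : ℝ) ≤ k := by exact_mod_cast not_lt.1 h
    push_cast at h5
    nlinarith
  interval_cases k <;> first | omega | (norm_num at h5 b5 b7 b11 b23; linarith)

theorem nodz22 {G : Type*} [Group G] [Finite G] (f : G →* MM) (hf : Function.Injective f)
    (h : f.range = H22) {χ : G → ℂ} (hχ : IsIrrCharacter G χ)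
    (h0 : ∀ g, 2 ∣ orderOf g → χ g = 0) : False := by
  have hG : Nat.card G = 443520 := by
    rw [← card_H22, ← h, Nat.card_congr (f.ofInjective hf).toEquiv]
  have key : ∀ x ∈ H22, ∀ r, Nat.card (zpowers x) = r → ∃ P : Subgroup G, Nat.card P = r ∧
      ∃ N ≤ H22, N ≤ normalizer (zpowers x : Set MM) ∧
        Nat.card N = Nat.card (normalizer (P : Set G)) := fun x hx r hr => by
    obtain ⟨y, rfl⟩ : x ∈ f.range := h ▸ hx
    exact ⟨zpowers y, by rw [← hr, Nat.card_zpowers, Nat.card_zpowers, orderOf_injective f hf],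
      (normalizer (zpowers y : Set G)).map f, h ▸ map_le_range _ _,
      MonoidHom.map_zpowers f y ▸ le_normalizer_map f, card_map_of_injective hf⟩
  obtain ⟨k, h1, h2⟩ := exists_deg_of_vanish (a := 7) (c := 3465) hχ h0 hG (by norm_num)
  have h3 := CF.mem_Irr_top.2 hχ
  have h4 := CF.irr_char h3
  obtain ⟨P5, p5, N5, a1, a2, a3⟩ := key (mm y5N) (H22_eq ▸ ActsL.mem_fixM (.cons y5_acts .nil)
    (by decide +kernel) _ (by simp)) 5 card_y5
  obtain ⟨P11, p11, N11, c1, c2, c3⟩ := key (mm bN) (H22_eq ▸ ActsL.mem_fixM (.cons bN_acts .nil)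
    (by decide +kernel) _ (by simp)) 11 card_b11
  have := Fact.mk (by norm_num : Nat.Prime 7)
  obtain ⟨x, hx⟩ := exists_prime_orderOf_dvd_card' (G := H22) 7 (by rw [card_H22]; norm_num)
  have s1 : Nat.card (zpowers x.1) = 7 := by rw [Nat.card_zpowers, orderOf_coe, hx]
  obtain ⟨P7, p7, N7, d1, d2, d3⟩ := key x.1 x.2 7 s1
  have m11 : Nat.card (normalizer (P11 : Set G)) ≤ 55 := by
    obtain ⟨n, e1, e2⟩ := nrm_mod (c := 40320) (by norm_num) p11 hG (by norm_num)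
    have := (card_le_of_le c2).trans nrm_b11
    omega
  have m7 : Nat.card (normalizer (P7 : Set G)) ≤ 21 := by
    obtain ⟨n, e1, e2⟩ := nrm_mod (c := 63360) (by norm_num) p7 hG (by norm_num)
    have e3 := card_dvd_of_le d2
    rw [(Cfsg.Agent.S5604.result _ s1).1, d3, e1] at e3
    have := Nat.le_of_dvd (by norm_num) e3
    have : n = 3 ∨ n = 10 ∨ n = 17 := by omega
    rcases this with rfl | rfl | rfl <;> omega
  have m5 : Nat.card (normalizer (P5 : Set G)) ≤ 20 := by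
    obtain ⟨n, e1, e2⟩ := nrm_mod (c := 88704) (by norm_num) p5 hG (by norm_num)
    obtain ⟨m, e3, e4⟩ := nrm_mod (c := 48964608) (by norm_num) card_y5 card_MM (by norm_num)
    have e5 := CF.card_mul_relIndex a2
    have e6 := nrm_y5
    obtain ⟨V, -, -, v3, a, ha, b, hb, v4, v5, v6⟩ := four_y5
    have v7 := (le_centralizer_iff.1 v3).trans (centralizer_le_normalizer _)
    have e7 : N5.relIndex (normalizer (zpowers (mm y5N) : Set MM)) ≠ 2 := fun e =>
      v6 (a1 ((mul_mem_iff_of_index_two e (a := ⟨a, v7 ha⟩) (b := ⟨b, v7 hb⟩)).2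
        (iff_of_false (fun h => v4 (a1 h)) fun h => v5 (a1 h))))
    rw [a3, e1, e3, mul_assoc, Nat.mul_right_inj (by norm_num)] at e5
    generalize N5.relIndex _ = i at e5 e7
    have e8 : (n * i) % 5 = 3 := by omega
    rw [Nat.mul_mod, e2] at e8
    have e9 : 7 ≤ i := by omega
    have := Nat.mul_le_mul_left n e9
    omega
  have := Fact.mk Nat.prime_three
  obtain ⟨T, hT⟩ := Sylow.exists_subgroup_card_pow_prime (G := G) 3 (n := 2) (by rw [hG]; norm_num)
  have h5 := sum_ordS_le h3 {1, 5, 7, 11} (B := (T : Set G) \ {1}) fun y hy h => by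
    have e := hT ▸ T.orderOf_dvd_natCard hy.1
    have e' := mt orderOf_eq_one_iff.1 hy.2
    simp only [Finset.mem_insert, Finset.mem_singleton] at h
    rcases h with h | h | h | h
    · exact e' h
    all_goals rw [h] at e; norm_num at e
  have b3 := ab_bound (IsPGroup.isMulCommutative_of_card_eq_prime_sq hT) h4 hT (q := 128 * k / 9)
    (r := 128 * k % 9) (by rw [h1]; congr 1; omega)
  have b5 := dz_bound0 (q := 128 * k / 5) (s := 128 * k % 5) h4 h0 (by norm_num) (by norm_num)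
    p5 m5 (by rw [h1]; congr 1; omega) (by omega)
  have b7 := dz_bound0 (q := 128 * k / 7) (s := 128 * k % 7) h4 h0 (by norm_num) (by norm_num)
    p7 m7 (by rw [h1]; congr 1; omega) (by omega)
  have b11 := dz_bound0 (q := 128 * k / 11) (s := 128 * k % 11) h4 h0 (by norm_num) (by norm_num)
    p11 m11 (by rw [h1]; congr 1; omega) (by omega)
  simp only [Finset.mem_insert, Finset.mem_singleton, OfNat.one_ne_ofNat, or_self, not_false_eq_true,
    Finset.sum_insert, Nat.reduceEqDiff, Finset.sum_singleton, ordS_one χ h1] at h5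
  rw [hG] at h5 b5 b7 b11
  have n5 := ordS_nonneg χ 5
  have n7 := ordS_nonneg χ 7
  have n11 := ordS_nonneg χ 11
  have n3 : 0 ≤ ∑ x ∈ CF.fs ((T : Set G) \ {1}), ‖χ x‖ ^ 2 := Finset.sum_nonneg fun _ _ => sq_nonneg _
  have hk : k < 6 := by
    by_contra h
    have : (6 : ℝ) ≤ k := by exact_mod_cast not_lt.1 h
    push_cast at h5
    nlinarith
  interval_cases k <;> first | omega | (norm_num at h5 b3 b5 b7 b11; linarith)

end
end H18
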