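import Cfsg.Agent.H18.Rk7a
import Cfsg.Agent.H18.Rk7b

/-! The seven suborbits of `J4` on the cosets of `2^11 : M24`. -/

set_option maxRecDepth 100000
set_option autoImplicit false
set_option linter.style.longLine false

namespace H18.Rk7
open Cfsg Cfsg.Spor H7.J4 H29 H29.J4m Subgroup MulAction H28

section
variable {G : Type} [Group G] {M : Model G} {x y t e : G}

theorem R_wv (s : Std M) {l : List G} (h : List.Forall₂ M.R L1 l) (w : List ℕ) : M.R (wv w) (ev l w) := by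
  induction w with
  | nil => rw [ev_nil]; have := M.R_one; rw [s.2.1] at this; exact this
  | cons a w ih =>
    rw [ev_cons]
    have := M.R_mul (R_getD h a) ih
    rw [s.1, s.2.1] at this
    exact this

theorem evH (w : List ℕ) (h : (w.all fun a => a != 3) = true) : ev [x, y, y⁻¹, t, e] w ∈ closure {x, y, e} := by
  induction w with
  | nil => exact one_mem _
  | cons a w ih =>
    rw [List.all_cons, Bool.and_eq_true] at h
    rw [ev_cons]
    refine mul_mem ?_ (ih h.2)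
    have y1 : y ∈ closure {x, y, e} := subset_closure (Or.inr (Or.inl rfl))
    rcases a with _ | _ | _ | _ | _ | a
    exacts [subset_closure (Or.inl rfl), y1, inv_mem y1, absurd h.1 (by decide),
      subset_closure (Or.inr (Or.inr rfl)), one_mem _]

theorem orb {H : Subgroup G} {k h a : G} (hk : k ∈ H) (hh : h ∈ H) :
    ((k * a * h : G) : G ⧸ H) ∈ orbit H (a : G ⧸ H) :=
  ⟨⟨k, hk⟩, QuotientGroup.eq.2 (by
    change (k * a)⁻¹ * (k * a * h) ∈ H
    rwa [inv_mul_cancel_left])⟩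

theorem wd : ∀ i < 20, ((aW.getD i []).all fun a => a != 3) = true ∧ ((hW.getD i []).all fun a => a != 3) = true ∧
    pa.getD i 0 < 20 ∧ ∀ g ∈ W i, g < 4 := by decide +kernel

theorem fu (s : Std M) (h : List.Forall₂ M.R L1 [x, y, y⁻¹, t, e]) (i : ℕ) (hi : i < 20) :
    orbit (closure ({x, y, e} : Set G)) ((ev [x, y, y⁻¹, t, e] (W i) : G) : G ⧸ closure ({x, y, e} : Set G)) =
      orbit (closure ({x, y, e} : Set G)) ((ev [x, y, y⁻¹, t, e] (W (pa.getD i 0)) : G) : G ⧸ closure ({x, y, e} : Set G)) := by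
  have c : chk i = true := by
    by_cases a : i < 10
    · exact all1_spec k1 i (by omega) (by omega)
    by_cases b : i < 15
    · exact all1_spec k2 i (by omega) (by omega)
    · exact all1_spec k3 i (by omega) (by omega)
  rw [M.eq_of (R_wv s h _) (R_wv s h _) (by rw [s.2.2]; exact c), ev_append, ev_append, ← mul_assoc, orbit_eq_iff]
  exact orb (evH _ (wd i hi).1) (evH _ (wd i hi).2.1)

theorem q4s (s : Std M) {c : ℕ} {g : G} (r : M.R c g) (h : q4 c = true) : g * g * (g * g) ≠ 1 := by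
  simp only [q4, force_eq, nb_iff] at h
  have r2 := M.R_mul r r
  refine M.ne_of (M.R_mul r2 r2) M.R_one ?_
  rw [s.1, s.2.1, s.2.2]; exact h

theorem n45 [Finite G] (s : Std M) (h : List.Forall₂ M.R L1 [x, y, y⁻¹, t, e]) :
    orbit (closure ({x, y, e} : Set G)) ((ev [x, y, y⁻¹, t, e] (W 4) : G) : G ⧸ closure ({x, y, e} : Set G)) ≠
      orbit (closure ({x, y, e} : Set G)) ((ev [x, y, y⁻¹, t, e] (W 3) : G) : G ⧸ closure ({x, y, e} : Set G)) := by
  have rx : M.R cx x := R_getD h 0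
  have ry : M.R cy y := R_getD h 1
  have rY : M.R cY y⁻¹ := R_getD h 2
  have re : M.R ce e := R_getD h 4
  have hK : ∀ c ∈ [cx, cy, cY, ce], M.In (closure {x, y, e}) c := by
    have y1 : y ∈ closure {x, y, e} := subset_closure (Or.inr (Or.inl rfl))
    simp only [List.forall_mem_cons]
    exact ⟨⟨_, subset_closure (Or.inl rfl), rx⟩, ⟨_, y1, ry⟩, ⟨_, inv_mem y1, rY⟩,
      ⟨_, subset_closure (Or.inr (Or.inr rfl)), re⟩, by simp⟩
  have hv := s.map hK eK (L' := eL) (by decide +kernel)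
  have ea : EA M eL := EA.of hv (by rw [s.1, s.2.1, s.2.2]; decide +kernel) (by rw [s.1, s.2.2]; decide +kernel)
  have x2 : x * x = 1 := s.eq h (.m (.v 0) (.v 0)) (.v 9) (by decide +kernel)
  have rX : M.R cx x⁻¹ := (inv_eq_of_mul_eq_one_right x2).symm ▸ rx
  have nx' := s.norm hv rx rX nx (by decide +kernel)
  have ny' := s.norm hv ry rY ny (by decide +kernel)
  have he : e ∈ M.cl eL := Model.mem_cl List.mem_cons_self re
  have hE : ∀ c ∈ eL, M.In (M.cl eL) c := fun c hc => (hv c hc).cl hc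
  have com : ∀ u ∈ M.cl eL, ∀ v ∈ M.cl eL, u * v = v * u := fun u hu v hv => by
    have k1 : M.cl eL ≤ centralizer (M.cl eL : Set G) := Model.cl_le' fun c hc α hα =>
      le_centralizer_iff.1 (show M.cl eL ≤ centralizer ((zpowers α : Subgroup G) : Set G) from
        Model.cl_le' fun c' hc' β hβ => by
          obtain ⟨γ, g1, -, g3⟩ := ea c' hc'
          rw [M.unique hβ g1]
          rintro _ ⟨n, rfl⟩
          exact ((g3 c hc α hα).zpow_right n).eq.symm) (mem_zpowers α)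
    exact (k1 hv u hu)
  have sq1 : ∀ g ∈ M.cl eL, g * g = 1 := fun g hg => by
    induction hg using closure_induction with
    | mem a ha =>
      obtain ⟨c, hc, hr⟩ := ha
      obtain ⟨γ, g1, g2, -⟩ := ea c hc
      rw [M.unique hr g1]; exact g2
    | one => exact one_mul 1
    | mul a b ha hb ia ib => rw [mul_assoc, ← mul_assoc b, com b hb a ha, mul_assoc, ib, mul_one, ia]
    | inv a ha ia => rw [← mul_inv_rev, ia, inv_one]
  have nH : closure {x, y, e} ≤ normalizer (M.cl eL : Set G) := (closure_le _).2 (by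
    rintro _ (rfl | rfl | rfl)
    exacts [nx', ny', le_normalizer he])
  have mE : ∀ (w : List ℕ) (a : Ex), Nat.beq (wv w) (slpv kmul kone [a] eL) = true → ev [x, y, y⁻¹, t, e] w ∈ M.cl eL :=
    fun w a k => by
      obtain ⟨d, dE, rd⟩ := s.slp hE [a] k
      exact M.unique rd (R_wv s h w) ▸ dE
  have vE := mE vW (.m (.v 0) (.m (.v 3) (.m (.v 4) (.m (.v 6) (.v 7))))) (by decide +kernel)
  have z1 := mE (zW.getD 1 []) (.m (.v 0) (.v 1)) (by decide +kernel)
  have z2 := mE (zW.getD 2 []) (.m (.v 0) (.v 2)) (by decide +kernel)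
  have z3 := mE (zW.getD 3 []) (.m (.v 0) (.v 3)) (by decide +kernel)
  have v1 : ev [x, y, y⁻¹, t, e] vW ≠ 1 := M.ne_of (R_wv s h _) M.R_one (by rw [s.2.1, s.2.2]; exact kv.2.1)
  have v2 := M.eq_of (R_wv s h _) (R_wv s h _) (by rw [s.2.2]; exact kv.1)
  have v3 := M.eq_of (R_wv s h _) M.R_one (by rw [s.2.1, s.2.2]; exact kv.2.2)
  have gH := evH (x := x) (y := y) (t := t) (e := e) gW (by decide +kernel)
  have rz : ∀ j c, wv (W 3 ++ (zW.getD j [] ++ iW)) = c → M.R c (ev [x, y, y⁻¹, t, e] (W 3) * ev [x, y, y⁻¹, t, e] (zW.getD j []) *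
      (ev [x, y, y⁻¹, t, e] (W 3))⁻¹) := fun j c k => by
    rw [ev_append] at v3
    have := R_wv s h (W 3 ++ (zW.getD j [] ++ iW))
    rwa [k, ev_append, ev_append, ← mul_assoc, ← inv_eq_of_mul_eq_one_right v3] at this
  have kz' := kz
  simp only [zW, List.map_cons, List.map_nil, List.cons.injEq, and_true] at kz'
  have r0 := rz 0 _ kz'.1
  have r1 := rz 1 _ kz'.2.1
  have r2 := rz 2 _ kz'.2.2.1
  have r3 := rz 3 _ kz'.2.2.2
  have z0 : ev [x, y, y⁻¹, t, e] (zW.getD 0 []) ∈ M.cl eL := by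
    change e * 1 ∈ _
    rwa [mul_one]
  rw [ev_append, ev_append] at v2
  generalize ev [x, y, y⁻¹, t, e] (W 3) = w at *
  generalize ev [x, y, y⁻¹, t, e] (W 4) = w' at *
  generalize ev [x, y, y⁻¹, t, e] vW = v at *
  generalize ev [x, y, y⁻¹, t, e] gW = g at *
  generalize ev [x, y, y⁻¹, t, e] (zW.getD 0 []) = p0 at *
  generalize ev [x, y, y⁻¹, t, e] (zW.getD 1 []) = p1 at *
  generalize ev [x, y, y⁻¹, t, e] (zW.getD 2 []) = p2 at *
  generalize ev [x, y, y⁻¹, t, e] (zW.getD 3 []) = p3 at *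
  intro o
  obtain ⟨⟨k, hk⟩, o'⟩ := orbit_eq_iff.1 o.symm
  have hl : (k * w')⁻¹ * w ∈ closure {x, y, e} := QuotientGroup.eq.1 o'
  have kE : k * v * k⁻¹ ∈ M.cl eL := (mem_normalizer_iff.1 (nH hk) v).1 vE
  have gg : w⁻¹ * (k * v * k⁻¹) * w ∈ closure {x, y, e} := by
    have : w⁻¹ * (k * v * k⁻¹) * w = ((k * w')⁻¹ * w)⁻¹ * g * ((k * w')⁻¹ * w) := by
      rw [show g = w'⁻¹ * (v * w') by rw [v2]; group]; group
    rw [this]; exact mul_mem (mul_mem (inv_mem hl) gH) hl
  have n1 : k * v * k⁻¹ ≠ 1 := fun o => v1 (by simpa using o)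
  generalize k * v * k⁻¹ = u at kE gg n1
  have key : ∀ p ∈ M.cl eL, ∀ a, a = u * (w * p * w⁻¹) → a * a * (a * a) = 1 := fun p hp a ha => by
    have m := sq1 _ (mul_mem ((mem_normalizer_iff.1 (nH gg) p).1 hp) hp)
    have ui : u⁻¹ = u := inv_eq_of_mul_eq_one_right (sq1 u kE)
    have : a * a = w * (w⁻¹ * u * w * p * (w⁻¹ * u * w)⁻¹ * p) * w⁻¹ := by
      rw [ha]; simp only [mul_inv_rev, ui]; group
    rw [this]
    calc _ = w * (w⁻¹ * u * w * p * (w⁻¹ * u * w)⁻¹ * p * (w⁻¹ * u * w * p * (w⁻¹ * u * w)⁻¹ * p)) * w⁻¹ := by group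
      _ = 1 := by rw [m]; group
  obtain ⟨c, rc, fc⟩ := ea.allE r0 (by rw [s.1]; exact fE) u kE
  have mm : ∀ {d : ℕ} {q : G}, M.R d q → M.R (kmul c d) (u * (w * p0 * w⁻¹) * q) := fun r => s.1 ▸ M.R_mul rc r
  simp only [ff, Bool.or_eq_true] at fc
  rcases fc with f | f | f | f | f
  · exact q4s s rc f (key _ z0 _ rfl)
  · exact n1 (by simpa using M.eq_of rc r0 (by rw [s.2.2]; exact f))
  · exact q4s s (mm r1) f (key _ (mul_mem z0 z1) _ (by group))
  · exact q4s s (mm r2) f (key _ (mul_mem z0 z2) _ (by group))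
  · exact q4s s (mm r3) f (key _ (mul_mem z0 z3) _ (by group))

end

def r : Fin 7 → ℕ := ![0, 1, 11, 2, 15, 3, 17]

theorem rk7 : (closure ({jx, jy, je} : Set J4)).index = 173067389 ∧
    ∃ c : Fin 7 → J4 ⧸ closure ({jx, jy, je} : Set J4),
      (∀ i j : Fin 7, i ≠ j → orbit (closure ({jx, jy, je} : Set J4)) (c i) ≠ orbit (closure ({jx, jy, je} : Set J4)) (c j)) ∧
      (∀ q : J4 ⧸ closure ({jx, jy, je} : Set J4), ∃ i : Fin 7, q ∈ orbit (closure ({jx, jy, je} : Set J4)) (c i)) ∧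
      (List.ofFn fun i => (orbit (closure ({jx, jy, je} : Set J4)) (c i)).ncard) =
        [1, 15180, 28336, 3400320, 32643072, 54405120, 82575360] := by
  obtain ⟨M, s, h0⟩ := j4_model'
  have cJ : Nat.card J4 = 86775571046077562880 := H7.JD.j_main.2.1.2
  have : Finite J4 := Nat.finite_of_card_ne_zero (by rw [cJ]; norm_num)
  have cH : Nat.card (closure ({jx, jy, je} : Set J4)) = 2048 * 244823040 := by
    have := (closure ({jx, jy, je} : Set J4)).card_mul_index
    rw [H7.JD.j_main.1, cJ] at this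
    exact Nat.eq_of_mul_eq_mul_right (by norm_num : 0 < 173067389) (this.trans (by norm_num))
  have h : ∀ r ∈ J4.extra, PresentedGroup.mk (coxRelators J4.edges ∪ {r | r ∈ J4.extra}) r = 1 :=
    fun r hr => PresentedGroup.one_of_mem (Or.inr hr)
  simp only [J4.extra, List.forall_mem_cons, _root_.map_mul, _root_.map_pow, _root_.map_inv] at h
  obtain ⟨h1, h2, h3, h4, h5, h6, h7, h8, h9, h10, h11, h12, -⟩ := h
  obtain ⟨O, o1, o2, o3⟩ := H2.Cov.cov h1 h2 h3 h4 h5 h6 h7 h8 h9 h10 h11 h12 H7.JD.j_top (closure {jx, jy, je})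
    (subset_closure (Or.inl rfl)) (subset_closure (Or.inr (Or.inl rfl))) (subset_closure (Or.inr (Or.inr rfl)))
  refine ⟨H7.JD.j_main.1, fun j => (ev [jx, jy, jy⁻¹, jt, je] (W (r j)) : J4), abs _ _ O (fun q => ?_) o2
    (fun i q hq => ?_) H7.JD.j_main.1 cH ?_⟩
  · obtain ⟨g, rfl⟩ := QuotientGroup.mk_surjective q
    exact o1 g
  · obtain ⟨g, rfl⟩ := QuotientGroup.mk_surjective q
    obtain ⟨k, hk, l, hl, e⟩ := o3 i g hq
    have e5 : ev [jx, jy, jy⁻¹, jt, je] (W i) = ev [jx, jy, jy⁻¹, jt] (H2.Cov.WL.getD i []) :=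
      ev_append_left [jx, jy, jy⁻¹, jt] [je] (wd i i.2).2.2.2
    have p1 := (wd i i.2).2.2.1
    have p2 := (wd _ p1).2.2.1
    rw [show r (b i) = pa.getD (pa.getD (pa.getD i 0) 0) 0 from (by decide +kernel : ∀ i : Fin 20, r (b i) = pa.getD (pa.getD (pa.getD i 0) 0) 0) i,
      ← fu s h0 _ p2, ← fu s h0 _ p1, ← fu s h0 _ i.2, e5]
    exact e ▸ orb hk hl
  · exact fun o => n45 s h0 ((fu s h0 4 (by norm_num)).trans o)

end H18.Rk7
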