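import Cfsg.Agent.H18.Rk7
import Cfsg.Prelude.Def_Transfer

/-! Transport of the rank seven action along an isomorphism with `J4`. -/

set_option autoImplicit false
set_option linter.style.longLine false

namespace H18.Rk7
open Cfsg Cfsg.Spor H7.J4 H29 H29.J4m Subgroup MulAction

def Pr {G : Type*} [Group G] (N : Subgroup G) : Prop :=
  N.index = 173067389 ∧ ∃ c : Fin 7 → G ⧸ N, (∀ i j : Fin 7, i ≠ j → orbit N (c i) ≠ orbit N (c j)) ∧
    (∀ q : G ⧸ N, ∃ i : Fin 7, q ∈ orbit N (c i)) ∧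
    (List.ofFn fun i => (orbit N (c i)).ncard) = [1, 15180, 28336, 3400320, 32643072, 54405120, 82575360]

theorem tr {G J : Type*} [Group G] [Group J] (e : G ≃* J) {N : Subgroup G} {H : Subgroup J}
    (h : ∀ g, g ∈ N ↔ e g ∈ H) (p : Pr H) : Pr N := by
  let q : G ⧸ N ≃ J ⧸ H := Quotient.congr e.toEquiv fun a b => by
    rw [QuotientGroup.leftRel_apply, QuotientGroup.leftRel_apply, h, map_mul, map_inv]; rfl
  have m : ∀ a b : G ⧸ N, a ∈ orbit N b ↔ q a ∈ orbit H (q b) := fun a b => by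
    obtain ⟨b, rfl⟩ := QuotientGroup.mk_surjective b
    constructor
    · rintro ⟨⟨k, hk⟩, rfl⟩
      exact ⟨⟨e k, (h k).1 hk⟩, congrArg (fun u : J => (u : J ⧸ H)) (map_mul e k b).symm⟩
    · rintro ⟨⟨k, hk⟩, o⟩
      obtain ⟨k, rfl⟩ := e.surjective k
      exact ⟨⟨k, (h k).2 hk⟩, q.injective ((congrArg (fun u : J => (u : J ⧸ H)) (map_mul e k b)).trans o)⟩
  obtain ⟨p0, c, p1, p2, p3⟩ := p
  have im : ∀ i, orbit H (c i) = q '' orbit N (q.symm (c i)) := fun i => by
    ext a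
    obtain ⟨a, rfl⟩ := q.surjective a
    rw [q.injective.mem_set_image, m, q.apply_symm_apply]
  refine ⟨(Nat.card_congr q).trans p0, fun i => q.symm (c i), fun i j n o => p1 i j n ?_, fun a => ?_, ?_⟩
  · rw [im, im, o]
  · obtain ⟨i, hi⟩ := p2 (q a)
    exact ⟨i, (m _ _).2 (by rwa [q.apply_symm_apply])⟩
  · rw [← p3]
    congr 1
    funext i
    rw [im, Set.ncard_image_of_injective _ q.injective]

theorem fin {G : Type*} [Group G] [Finite G] (e : G ≃* J4)
    (h66 : ∀ T : Sylow 2 G, ∃! V : Subgroup G, V ≤ (T : Subgroup G) ∧ Cfsg.IsElementaryAbelian 2 V ∧ Nat.card ↥V = 2 ^ 11)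
    (V : Subgroup G) (hV : Cfsg.IsElementaryAbelian 2 V) (hcard : Nat.card ↥V = 2 ^ 11) :
    Pr (normalizer (V : Set G)) := by
  obtain ⟨E, d, -, cE, sq, eE, -, nx, ny, dE, -, hd, -⟩ := comp
  have nE : ∀ g, g ∈ normalizer (E : Set J4) ↔ g ∈ closure ({jx, jy, je} : Set J4) := fun g =>
    ⟨fun k => hd g (by simpa using (mem_normalizer_iff.1 (inv_mem k) d).1 dE), fun k => (closure_le _).2 (by
      rintro _ (rfl | rfl | rfl)
      exacts [nx, ny, le_normalizer eE]) k⟩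
  have ea : ∀ (f : G ≃* J4), Cfsg.IsElementaryAbelian 2 (E.comap f.toMonoidHom) ∧ Nat.card (E.comap f.toMonoidHom) = 2 ^ 11 :=
    fun f => by
      have s : ∀ a ∈ E.comap f.toMonoidHom, a * a = 1 := fun a ha => f.injective (by rw [map_mul, map_one]; exact sq _ ha)
      refine ⟨⟨⟨⟨fun a b => Subtype.ext ?_⟩⟩, fun a ha => by rw [pow_two, s a ha]⟩, ?_⟩
      · have i : ∀ a ∈ E.comap f.toMonoidHom, a⁻¹ = a := fun a ha => inv_eq_of_mul_eq_one_right (s a ha)
        change a.1 * b.1 = b.1 * a.1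
        rw [← i _ (mul_mem a.2 b.2), mul_inv_rev, i _ a.2, i _ b.2]
      · rw [← cE]
        exact Nat.card_congr (f.toEquiv.subtypeEquiv fun _ => Iff.rfl)
  obtain ⟨T, hT⟩ := (IsPGroup.of_card hcard).exists_le_sylow
  obtain ⟨T', hT'⟩ := (IsPGroup.of_card (ea e).2).exists_le_sylow
  obtain ⟨g, rfl⟩ := MulAction.exists_smul_eq G T T'
  let f : G ≃* J4 := (MulAut.conj g).trans e
  have eq : V = E.comap f.toMonoidHom := (h66 T).unique ⟨hT, hV, hcard⟩ ⟨fun a ha => by
    have : g * a * g⁻¹ ∈ ((g • T : Sylow 2 G) : Subgroup G) := hT' ha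
    rw [Sylow.coe_subgroup_smul, mem_pointwise_smul_iff_inv_smul_mem] at this
    simpa [mul_assoc] using this, ea f⟩
  refine tr f (fun a => ?_) rk7
  rw [← nE, eq, mem_normalizer_iff, mem_normalizer_iff]
  constructor
  · intro k v
    obtain ⟨v, rfl⟩ := f.surjective v
    simpa using k v
  · intro k v
    simpa using k (f v)

end H18.Rk7
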