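import Cfsg.Agent.H18.Su3

/-! Subgroups of small index in `SU₃(q)`: the pairing argument. -/

set_option autoImplicit false

namespace H18.Su

open Matrix Cfsg H23

attribute [-simp] H23.conj_apply

variable {F : Type*} [Field F] [Fintype F] {q : ℕ} {hF : Fintype.card F = q ^ 2}

theorem exists_fix_sq (hF : Fintype.card F = q ^ 2) (hq : 4 ≤ q) :
    ∃ s : Fˣ, conj hF s = s ∧ s ^ 2 ≠ 1 := by
  by_contra hn
  push Not at hn
  have hle : (powMonoidHom (q - 1) : Fˣ →* Fˣ).ker ≤ (powMonoidHom 2 : Fˣ →* Fˣ).ker := by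
    intro l hl
    rw [MonoidHom.mem_ker, powMonoidHom_apply] at hl ⊢
    apply hn
    have : (l : F) ^ (q - 1) = 1 := by rw [← Units.val_pow_eq_pow_val, hl, Units.val_one]
    rw [conj_apply, show q = q - 1 + 1 by omega, pow_succ, this, one_mul]
  have d := Subgroup.card_dvd_of_le hle
  rw [card_ker_pow_pred hF, IsCyclic.card_powMonoidHom_ker] at d
  have := Nat.le_of_dvd (by norm_num) (d.trans (Nat.gcd_dvd_right _ _))
  omega

/-- Every element of `L` fixing `v` fixes `v'`. -/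
def Pr (L : Subgroup (UU hF)) (v v' : Fin 3 → F) : Prop := ∀ g ∈ L, Fx g v → Fx g v'

variable {L H : Subgroup (UU hF)}

theorem Pr.ac {v v' : Fin 3 → F} (h : Pr L v v') {g : UU hF} (hg : g ∈ L) :
    Pr L (ac g v) (ac g v') := fun k hk hf =>
  fx_conj.2 (h _ (mul_mem (mul_mem (inv_mem hg) hk) hg) (fx_conj.1 hf))

theorem Pr.left {v v' : Fin 3 → F} {c : F} (hc : c ≠ 0) : Pr L (c • v) v' ↔ Pr L v v' := by
  simp only [Pr, fx_smul_iff hc]

theorem Pr.right {v v' : Fin 3 → F} {c : F} (hc : c ≠ 0) : Pr L v (c • v') ↔ Pr L v v' := by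
  simp only [Pr, fx_smul_iff hc]

theorem tt_e2 (l : Fˣ) : ac (tt hF l) e2 = (conj hF l)⁻¹ • e2 := by
  rw [ac_tt]; ext i; fin_cases i <;> simp [e2]

theorem fx_tt {s : Fˣ} (hs : conj hF s = s) (hs2 : s ^ 2 ≠ 1) {v : Fin 3 → F} (h : Fx (tt hF s) v) :
    v 2 = 0 ∨ (v 0 = 0 ∧ v 1 = 0) := by
  obtain ⟨k, hk⟩ := h
  rw [ac_tt, hs] at hk
  have h0 : (s : F) * v 0 = k * v 0 := congrFun hk 0
  have h1 : (s : F) / s * v 1 = k * v 1 := congrFun hk 1
  have h2 : (s : F)⁻¹ * v 2 = k * v 2 := congrFun hk 2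
  by_cases hv : v 2 = 0
  · exact Or.inl hv
  right
  have hk' : (s : F)⁻¹ = k := mul_right_cancel₀ hv h2
  subst hk'
  have := s.ne_zero
  constructor
  · by_contra hn
    have h3 := mul_right_cancel₀ hn h0
    apply hs2
    ext
    rw [Units.val_pow_eq_pow_val, Units.val_one]
    field_simp at h3
    exact h3
  · by_contra hn
    have h3 := mul_right_cancel₀ hn h1
    apply hs2
    field_simp at h3
    have : s = 1 := Units.ext h3
    rw [this, one_pow]

theorem not_par (g : UU hF) {k l : F} (hl : l ≠ 0) (e : k • ac g e0 = l • ac g e2) : False := by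
  have := congrArg (fun v => ac g⁻¹ v 2) e
  simp only [ac_smul, ac_inv_ac] at this
  simp [e0, e2] at this
  exact hl this.symm

section
variable (hlt : H.index ≤ q ^ 3) (htt : ∀ l ∈ TT H, tt hF l ∈ H)
include hlt htt

omit hlt in
theorem xx_mem_of {l : Fˣ} {c b : F} {h : b + conj hF b = c * conj hF c}
    (hm : xx c b h * tt hF l ∈ H) : l ∈ TT H ∧ xx c b h ∈ H := by
  have h1 : l ∈ TT H := by
    have := chi_mem (g := ⟨_, mul_mem (xx_mem c b h) (tt_mem l)⟩) hm
    rwa [chi_xt rfl] at this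
  exact ⟨h1, by simpa using mul_mem hm (inv_mem (htt l h1))⟩

theorem even_false (hq : 4 ≤ q)
    (hcore : ∀ N : Subgroup (UU hF), N.Normal → N ≤ H → N ≤ Subgroup.center _)
    (hi : H.index = q ^ 3) (h0 : ∀ c b h, xx c b h ∈ H → c = 0) (h2 : (2 : F) = 0) : False := by
  obtain ⟨s, hs, hs2⟩ := exists_fix_sq hF hq
  obtain ⟨h, hh, b, ⟨k, hk⟩, e⟩ := trans_of_index (H := H) bruhat (by rw [index_BB]; omega) (ww hF)
  have hk0 := Fx.ne e0_ne hk
  have e1 : k • ac h e0 = e2 := by
    rw [← ac_smul, ← hk, ← ac_mul, ← e, ac_ww]; simp [e0, e2]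
  have p1 : Pr H e0 e2 := by
    intro g hg hf
    obtain ⟨l, c, b, hb, rfl⟩ := exists_of_mem_BB (g := g) hf
    have hm := (xx_mem_of htt hg).2
    obtain rfl := h0 c b hb hm
    obtain rfl := notv hlt hcore hm
    rw [xx_zero, one_mul]
    exact ⟨_, tt_e2 l⟩
  have p2 := (Pr.left hk0).2 (p1.ac hh)
  rw [e1] at p2
  have hiso : hJ hF (ac h e2) (ac h e2) = 0 := by rw [ac_hJ]; simp [hJ, e2]
  have hB : h * h ∈ BB hF := by
    rcases fx_tt hs hs2 (p2 _ (htt s (fix_mem hlt hs)) ⟨_, tt_e2 s⟩) with h3 | ⟨h3, h4⟩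
    · have h4 : ac h e2 1 = 0 := by simpa [hJ, h3] using hiso
      refine ⟨k⁻¹ * ac h e2 0, ?_⟩
      have : ac h e0 = k⁻¹ • e2 := by rw [← e1, smul_smul, inv_mul_cancel₀ hk0, one_smul]
      rw [ac_mul, this, ac_smul]
      ext i; fin_cases i <;> simp [e0, h3, h4]
    · exfalso
      refine not_par h (k := ac h e2 2 * k) (l := 1) one_ne_zero ?_
      rw [← smul_smul, e1]
      ext i; fin_cases i <;> simp [e2, h3, h4]
      all_goals simp_all [e2]
  have hodd : Odd (Nat.card H) := by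
    have h3 := H.card_mul_index
    rw [hi, card_UU] at h3
    have h4 : Nat.card H = (q + 1) * (q - 1) * (q ^ 3 + 1) := by
      apply Nat.eq_of_mul_eq_mul_right (show 0 < q ^ 3 by positivity)
      rw [h3]; ring
    have hc : CharP F 2 := CharTwo.of_one_ne_zero_of_two_eq_zero one_ne_zero h2
    have h5 := FiniteField.even_card_iff_char_two.1 (ringChar.eq F 2)
    rw [hF, ← Nat.even_iff, Nat.even_pow] at h5
    have h6 := h5.1
    rw [h4]
    refine (Odd.mul h6.add_one ?_).mul (Even.add_one (Nat.even_pow.2 ⟨h6, by norm_num⟩))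
    obtain ⟨m, hm⟩ := h6
    exact ⟨m - 1, by omega⟩
  obtain ⟨m, hm⟩ := hodd
  have h5 : h ^ (2 * m + 1) = 1 := by
    rw [← hm]
    exact congrArg Subtype.val (pow_card_eq_one' (G := H) (x := ⟨h, hh⟩))
  have h6 : h ∈ BB hF := by
    have : h = ((h * h) ^ m)⁻¹ := by
      rw [eq_inv_iff_mul_eq_one, ← sq, ← pow_mul, ← pow_succ', h5]
    rw [this]
    exact inv_mem (pow_mem hB m)
  obtain ⟨j, hj⟩ := h6
  rw [hj] at e1
  have := congrFun e1 2
  simp [e0, e2] at this

end

/-- The points of the fixed line. -/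
def vb (b : F) : Fin 3 → F := ![b, 0, 1]

theorem tt_vb (l : Fˣ) (b : F) : ac (tt hF l) (vb b) = (conj hF l)⁻¹ • vb (l * conj hF l * b) := by
  have := conj_ne (hF := hF) l.ne_zero
  rw [ac_tt]; ext i; fin_cases i <;> simp [vb]
  field_simp

/-- `κ b` is the partner of `b`. -/
def QQ (L : Subgroup (UU hF)) (b κ : F) : Prop :=
  κ ≠ 0 ∧ κ ≠ 1 ∧ Pr L (vb b) (vb (κ * b)) ∧
    ∀ v : Fin 3 → F, v 1 = 0 → Pr L (vb b) v → v 0 = b * v 2 ∨ v 0 = κ * b * v 2

theorem QQ.tor {b κ : F} (h : QQ L b κ) {l : Fˣ} (hl : tt hF l ∈ L) :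
    QQ L (l * conj hF l * b) κ := by
  obtain ⟨h0, h1, h2, h3⟩ := h
  have hc := conj_ne (hF := hF) l.ne_zero
  have := l.ne_zero
  refine ⟨h0, h1, ?_, fun v hv hp => ?_⟩
  · have := h2.ac hl
    rw [tt_vb, tt_vb, Pr.left (inv_ne_zero hc), Pr.right (inv_ne_zero hc)] at this
    convert this using 2; ring
  · rw [← Pr.left (inv_ne_zero hc), ← tt_vb] at hp
    have h4 := hp.ac (inv_mem hl)
    rw [ac_inv_ac] at h4
    have e : (tt hF l)⁻¹ = tt hF l⁻¹ := (map_inv (tH hF) l).symm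
    rw [e, ac_tt] at h4
    have := h3 _ (by simp [hv]) h4
    simp only [Units.val_inv_eq_inv_val, map_inv₀, inv_inv, cons_val_zero, cons_val] at this
    rcases this with h | h
    · left; field_simp at h; linear_combination h
    · right; field_simp at h; linear_combination h

theorem mobius (hq : 4 ≤ q) (hL1 : ∀ g ∈ L, Fx g e0 → ∃ l, g = tt hF l)
    (hL2 : ∀ s : Fˣ, conj hF s = s → tt hF s ∈ L)
    (hL3 : ∀ g ∈ L, ∀ v : Fin 3 → F, v 1 = 0 → ac g v 1 = 0)
    (hL4 : ∀ b : F, b + conj hF b = 0 → ∃ g ∈ L, ∃ k : F, ac g e0 = k • vb b)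
    (Rp : Finset F) (hR1 : ∀ r ∈ Rp, r ≠ 0 ∧ r + conj hF r = 0)
    (hR2 : ∀ b : F, b ≠ 0 → b + conj hF b = 0 → ∃ l, tt hF l ∈ L ∧ ∃ r ∈ Rp, b = l * conj hF l * r) :
    q ≤ 3 + 2 * Rp.card ^ 2 := by
  classical
  obtain ⟨s, hs, hs2⟩ := exists_fix_sq hF hq
  have p1 : Pr L e0 e2 := by
    intro g hg hf
    obtain ⟨l, rfl⟩ := hL1 g hg hf
    exact ⟨_, tt_e2 l⟩
  have f0 : ∀ v, Pr L e0 v → v 2 = 0 ∨ v 0 = 0 := fun v hv =>
    (fx_tt hs hs2 (hv _ (hL2 s hs) (tt_mem s))).imp id And.left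
  have f2 : ∀ v, Pr L e2 v → v 2 = 0 ∨ v 0 = 0 := fun v hv =>
    (fx_tt hs hs2 (hv _ (hL2 s hs) ⟨_, tt_e2 s⟩)).imp id And.left
  have p2 : Pr L e2 e0 := by
    obtain ⟨g, hg, k, hk⟩ := hL4 0 (by simp)
    have hk0 : k ≠ 0 := by
      rintro rfl
      exact ac_ne_zero g e0_ne (by rw [hk, zero_smul])
    have e1 : ac g e0 = k • e2 := hk
    have := p1.ac hg
    rw [e1, Pr.left hk0] at this
    have h1 := hL3 g hg e2 (by simp [e2])
    rcases f2 _ this with h | h
    · have e3 : ac g e2 = ac g e2 0 • e0 := by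
        ext i; fin_cases i <;> simp [e0, h, h1]
      have h0 : ac g e2 0 ≠ 0 := fun h0 => ac_ne_zero g e2_ne (by rw [e3, h0, zero_smul])
      rwa [e3, Pr.right h0] at this
    · exfalso
      refine not_par g (k := ac g e2 2) (l := k) hk0 ?_
      rw [e1]
      generalize ac g e2 = v at h h1
      ext i; fin_cases i <;> simp [h, h1, mul_comm, e2]
  have hQ : ∀ b : F, b ≠ 0 → b + conj hF b = 0 → ∃ κ, QQ L b κ := by
    intro b hb0 hb
    obtain ⟨g, hg, k, hk⟩ := hL4 b hb
    have hk0 : k ≠ 0 := by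
      rintro rfl
      exact ac_ne_zero g e0_ne (by rw [hk, zero_smul])
    have h1 := hL3 g hg e2 (by simp [e2])
    have a1 := p1.ac hg
    have a2 := p2.ac hg
    rw [hk] at a1 a2
    rw [Pr.left hk0] at a1
    rw [Pr.right hk0] at a2
    set p := ac g e2 with hp
    have hp0 : p ≠ 0 := ac_ne_zero g e2_ne
    have h2 : p 2 ≠ 0 := by
      intro h
      have e3 : p = p 0 • e0 := by ext i; fin_cases i <;> simp [e0, h, h1]
      have h0 : p 0 ≠ 0 := fun h0 => hp0 (by rw [e3, h0, zero_smul])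
      rw [e3, Pr.left h0] at a2
      simpa [vb, hb0] using f0 _ a2
    have h0 : p 0 ≠ 0 := by
      intro h
      have e3 : p = p 2 • e2 := by ext i; fin_cases i <;> simp [e2, h, h1]
      rw [e3, Pr.left h2] at a2
      simpa [vb, hb0] using f2 _ a2
    have e3 : p = p 2 • vb (p 0 / (p 2 * b) * b) := by
      ext i; fin_cases i <;> simp [vb, h1]
      field_simp
    refine ⟨p 0 / (p 2 * b), div_ne_zero h0 (mul_ne_zero h2 hb0), ?_, ?_, ?_⟩
    · intro h
      rw [h, one_mul] at e3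
      refine not_par g (k := p 2) (l := k) hk0 ?_
      rw [hk, ← hp, smul_comm, ← e3]
    · rwa [e3, Pr.right h2] at a1
    · intro v hv hpv
      rw [← Pr.left hk0, ← hk] at hpv
      have h4 := hpv.ac (inv_mem hg)
      rw [ac_inv_ac] at h4
      have h5 := hL3 _ (inv_mem hg) v hv
      set u := ac g⁻¹ v with hu
      have hvu : v = ac g u := by rw [hu, ac_ac_inv]
      rcases f0 _ h4 with h | h
      · left
        have e4 : u = u 0 • e0 := by ext i; fin_cases i <;> simp [e0, h, h5]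
        rw [hvu, e4, ac_smul, hk]
        simp [vb]; ring
      · right
        have e4 : u = u 2 • e2 := by ext i; fin_cases i <;> simp [e2, h, h5]
        rw [hvu, e4, ac_smul, ← hp]
        simp only [Pi.smul_apply, smul_eq_mul]
        field_simp
  choose! κ hκ using hQ
  set K := Rp.image κ with hK
  have hQK : ∀ b : F, b ≠ 0 → b + conj hF b = 0 → ∃ k ∈ K, QQ L b k := by
    intro b hb0 hb
    obtain ⟨l, hl, r, hr, rfl⟩ := hR2 b hb0 hb
    exact ⟨κ r, Finset.mem_image_of_mem _ hr, (hκ r (hR1 r hr).1 (hR1 r hr).2).tor hl⟩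
  have hK1 : ∀ k ∈ K, k ≠ 0 ∧ k ≠ 1 := by
    intro k hk
    obtain ⟨r, hr, rfl⟩ := Finset.mem_image.1 hk
    have := hκ r (hR1 r hr).1 (hR1 r hr).2
    exact ⟨this.1, this.2.1⟩
  obtain ⟨b0, hb00, hb0⟩ := exists_trace_zero_ne_zero hF
  obtain ⟨g, hg, k, hk⟩ := hL4 b0 hb0
  have hk0 : k ≠ 0 := by
    rintro rfl
    exact ac_ne_zero g e0_ne (by rw [hk, zero_smul])
  set α := mt g 0 0
  set β := mt g 0 2
  set γ := mt g 2 0
  set δ := mt g 2 2
  have hα : α ≠ 0 := by
    have : α = k * b0 := (ac_e0 g 0).symm.trans (by rw [hk]; simp [vb])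
    rw [this]; exact mul_ne_zero hk0 hb00
  have hγ : γ ≠ 0 := by
    have : γ = k := (ac_e0 g 2).symm.trans (by rw [hk]; simp [vb])
    rw [this]; exact hk0
  have hv0 : ∀ x, ac g (vb x) 0 = α * x + β := fun x => by simp [ac_apply, vb, α, β]
  have hv2 : ∀ x, ac g (vb x) 2 = γ * x + δ := fun x => by simp [ac_apply, vb, γ, δ]
  let P : F × F → Polynomial F := fun y => Polynomial.C (α * y.1 * γ * (1 - y.2)) * Polynomial.X ^ 2 +
    Polynomial.C (α * y.1 * δ + β * γ - y.2 * (α * δ + β * γ * y.1)) * Polynomial.X +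
    Polynomial.C (β * δ * (1 - y.2))
  have hP : ∀ y ∈ K ×ˢ K, α * y.1 * γ * (1 - y.2) ≠ 0 := by
    intro y hy
    rw [Finset.mem_product] at hy
    exact mul_ne_zero (mul_ne_zero (mul_ne_zero hα (hK1 _ hy.1).1) hγ) (sub_ne_zero.2 (hK1 _ hy.2).2.symm)
  have hsub : (Finset.univ.filter fun x : F => x + x ^ q = 0) ⊆
      {0, -δ / γ, -β / α} ∪ (K ×ˢ K).biUnion fun y => (P y).roots.toFinset := by
    intro x hx
    rw [Finset.mem_filter, ← conj_apply hF] at hx
    by_contra hn
    simp only [Finset.mem_union, Finset.mem_insert, Finset.mem_singleton, not_or] at hn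
    obtain ⟨⟨hx0, hx1, hx2⟩, hn⟩ := hn
    have n2 : γ * x + δ ≠ 0 := fun h => hx1 (by field_simp; linear_combination h)
    have n0 : α * x + β ≠ 0 := fun h => hx2 (by field_simp; linear_combination h)
    obtain ⟨k1, hk1, q1⟩ := hQK x hx0 hx.2
    set y := (α * x + β) / (γ * x + δ) with hy
    have e1 : ac g (vb x) = (γ * x + δ) • vb y := by
      have h1 := hL3 g hg (vb x) (by simp [vb])
      ext i; fin_cases i
      · refine (hv0 x).trans ?_
        show _ = (γ * x + δ) * y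
        rw [hy, mul_div_cancel₀ _ n2]
      · simpa [vb] using h1
      · simpa [vb] using hv2 x
    have hyt : y + conj hF y = 0 := by
      have h1 := ac_hJ g (vb x) (vb x)
      rw [e1] at h1
      have := conj_ne (hF := hF) n2
      generalize γ * x + δ = t at h1 this n2
      simp [hJ, vb] at h1
      apply mul_left_cancel₀ (mul_ne_zero n2 this)
      linear_combination h1 + hx.2
    obtain ⟨k2, hk2, q2⟩ := hQK y (div_ne_zero n0 n2) hyt
    have a1 := q1.2.2.1.ac hg
    rw [e1, Pr.left n2] at a1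
    have h1 := hL3 g hg (vb (k1 * x)) (by simp [vb])
    rcases q2.2.2.2 _ h1 a1 with h | h
    · have e2' : ac g (vb (k1 * x)) = ac g (vb (k1 * x)) 2 • vb y := by
        ext i; fin_cases i
        · exact h.trans (mul_comm _ _)
        · simpa [vb] using h1
        · simp [vb]
      have e3 : (γ * x + δ) • vb (k1 * x) = ac g (vb (k1 * x)) 2 • vb x := by
        have : ac g ((γ * x + δ) • vb (k1 * x)) = ac g (ac g (vb (k1 * x)) 2 • vb x) := by
          rw [ac_smul, ac_smul, e1, smul_comm, ← e2']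
        simpa using congrArg (ac g⁻¹) this
      have e4 := congrFun e3 0
      have e5 := congrFun e3 2
      simp only [Pi.smul_apply, smul_eq_mul] at e4 e5
      generalize ac g (vb (k1 * x)) 2 = t at e4 e5
      simp only [vb, cons_val_zero, cons_val, mul_one] at e4 e5
      rw [← e5] at e4
      exact q1.2.1 (mul_right_cancel₀ hx0 ((mul_left_cancel₀ n2 e4).trans (one_mul x).symm))
    · apply hn
      rw [Finset.mem_biUnion]
      have hm : (k1, k2) ∈ K ×ˢ K := Finset.mem_product.2 ⟨hk1, hk2⟩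
      refine ⟨(k1, k2), hm, ?_⟩
      rw [Multiset.mem_toFinset, Polynomial.mem_roots]
      · rw [hv0, hv2] at h
        have hy' : (γ * x + δ) * y = α * x + β := by rw [hy, mul_div_cancel₀ _ n2]
        simp only [P, Polynomial.IsRoot, Polynomial.eval_add, Polynomial.eval_mul, Polynomial.eval_C,
          Polynomial.eval_pow, Polynomial.eval_X]
        linear_combination (γ * x + δ) * h + k2 * (γ * (k1 * x) + δ) * hy'
      · intro h0
        have := Polynomial.natDegree_quadratic (b := α * k1 * δ + β * γ - k2 * (α * δ + β * γ * k1))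
          (c := β * δ * (1 - k2)) (hP _ hm)
        simp only [P] at h0
        rw [h0] at this
        simp at this
  have hc := Finset.card_le_card hsub
  have h1 : (Finset.univ.filter fun x : F => x + x ^ q = 0).card = q := by
    rw [← Fintype.card_subtype, ← Nat.card_eq_fintype_card, card_trace_zero hF]
  have h2 := Finset.card_union_le ({0, -δ / γ, -β / α} : Finset F)
    ((K ×ˢ K).biUnion fun y => (P y).roots.toFinset)
  have h3 : ({0, -δ / γ, -β / α} : Finset F).card ≤ 3 := Finset.card_le_three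
  have h4 : ((K ×ˢ K).biUnion fun y => (P y).roots.toFinset).card ≤ (K ×ˢ K).card * 2 := by
    apply Finset.card_biUnion_le_card_mul
    intro y hy
    refine (Multiset.toFinset_card_le _).trans ((Polynomial.card_roots' _).trans ?_)
    exact (Polynomial.natDegree_quadratic (hP y hy)).le
  have h5 : K.card ≤ Rp.card := Finset.card_image_le
  rw [Finset.card_product] at h4
  have h6 : K.card * K.card ≤ Rp.card ^ 2 := by rw [sq]; exact Nat.mul_le_mul h5 h5
  omega

theorem odd_bound (hq : 4 ≤ q) (hlt : H.index ≤ q ^ 3) (htt : ∀ l ∈ TT H, tt hF l ∈ H)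
    (hcore : ∀ N : Subgroup (UU hF), N.Normal → N ≤ H → N ≤ Subgroup.center _) (h2 : (2 : F) ≠ 0)
    (Rp : Finset F) (hR1 : ∀ r ∈ Rp, r ≠ 0 ∧ r + conj hF r = 0)
    (hR2 : ∀ b : F, b ≠ 0 → b + conj hF b = 0 → ∃ l ∈ TT H, ∃ r ∈ Rp, b = l * conj hF l * r) :
    q ≤ 3 + 2 * Rp.card ^ 2 := by
  set u := tt hF (-1) with hu
  have hux : ∀ c b h, u * xx c b h = xx (-c) b (by simpa using h) * u := by
    intro c b h
    rw [hu, tt_xx]
    congr 1
    exact xx_congr (by simp) (by simp)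
  have hT : ∀ l ∈ TT H, tt hF l ∈ H ⊓ Subgroup.centralizer {u} := by
    intro l hl
    refine ⟨htt l hl, Subgroup.mem_centralizer_singleton_iff.2 ?_⟩
    rw [hu, ← tt_mul, ← tt_mul, mul_comm]
  have huH : u ∈ H := htt _ (fix_mem hlt (by simp))
  have hu1 : ∀ v : Fin 3 → F, v 1 = 0 → ac u v = -v := by
    intro v hv
    rw [hu, ac_tt]
    ext i; fin_cases i <;> simp [hv]
  refine mobius (L := H ⊓ Subgroup.centralizer {u}) hq ?_ (fun s hs => hT s (fix_mem hlt hs)) ?_ ?_ Rp hR1 ?_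
  · rintro g ⟨hg, hc⟩ hf
    obtain ⟨l, c, b, hb, rfl⟩ := exists_of_mem_BB (g := g) hf
    obtain ⟨hl, hm⟩ := xx_mem_of htt hg
    have h1 := Subgroup.mem_centralizer_singleton_iff.1 hc
    have h3 := Subgroup.mem_centralizer_singleton_iff.1 (hT l hl).2
    rw [mul_assoc, h3, ← mul_assoc, ← mul_assoc, hux] at h1
    have h4 := (xx_inj (mul_right_cancel (mul_right_cancel h1))).1
    obtain rfl : c = 0 := by
      apply mul_left_cancel₀ h2
      linear_combination h4
    obtain rfl := notv hlt hcore hm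
    exact ⟨l, by rw [xx_zero, one_mul]⟩
  · rintro g ⟨-, hc⟩ v hv
    have h1 := Subgroup.mem_centralizer_singleton_iff.1 hc
    have h3 := congrArg (fun k => ac k v 1) h1
    simp only [ac_mul] at h3
    rw [hu1 v hv, ← neg_one_smul F v, ac_smul, hu, ac_tt] at h3
    simp at h3
    apply mul_left_cancel₀ h2
    linear_combination -h3
  · intro b hb
    obtain ⟨h, hh, a, ⟨k, hk⟩, e⟩ := trans_of_index (H := H) bruhat (by rw [index_BB]; omega)
      (xx 0 b (by simpa using hb) * ww hF)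
    have hk0 := Fx.ne e0_ne hk
    have e1 : ac h e0 = k⁻¹ • vb b := by
      rw [eq_inv_smul_iff₀ hk0, ← ac_smul, ← hk, ← ac_mul, ← e, ac_mul, ac_ww, ac_xx]
      ext i; fin_cases i <;> simp [e0, vb]
    have hy : ac (h⁻¹ * u * h) e0 = ((-1 : Fˣ) : F) • e0 := by
      rw [ac_mul, ac_mul, hu1 _ (by rw [e1]; simp [vb]), ← neg_one_smul F, ac_smul, ac_inv_ac]
      simp
    obtain ⟨l, c, d, hd, e2⟩ := exists_of_mem_BB (g := h⁻¹ * u * h) ⟨_, hy⟩
    obtain rfl : l = -1 := by
      have e3 := chi_xt (g := ⟨h⁻¹ * u * h, _, hy⟩) e2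
      rw [chi_eq hy] at e3
      exact e3.symm
    rw [← hu] at e2
    have huu : u * u = 1 := by rw [hu, ← tt_mul]; simp [tt_one]
    have hm : xx c d hd ∈ H := (xx_mem_of htt (l := -1) (by
      rw [← hu, ← e2]; exact mul_mem (mul_mem (inv_mem hh) huH) hh)).2
    have hdd : 2 * d = conj hF c * c := by
      have e3 : (xx c d hd * u) * (xx c d hd * u) = 1 := by
        rw [← e2]
        calc h⁻¹ * u * h * (h⁻¹ * u * h) = h⁻¹ * (u * u) * h := by group
          _ = 1 := by rw [huu]; simp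
      rw [mul_assoc, ← mul_assoc u, hux, mul_assoc, huu, mul_one, xx_mul, ← xx_zero] at e3
      linear_combination (xx_inj e3).2
    have c2 : conj hF 2 = 2 := map_ofNat _ 2
    have c4 : conj hF 4 = 4 := map_ofNat _ 4
    have h4 : (4 : F) ≠ 0 := by
      rw [show (4 : F) = 2 * 2 by norm_num]; exact mul_ne_zero h2 h2
    have hpf : d / 4 + conj hF (d / 4) = c / 2 * conj hF (c / 2) := by
      simp only [map_div₀, c2, c4]
      field_simp
      linear_combination 4 * hd
    have hr : xx (c / 2) (d / 4) hpf ∈ H := by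
      have hs : tt hF (Units.mk0 2 h2)⁻¹ ∈ H := htt _ (inv_mem (fix_mem hlt c2))
      have := mul_mem (mul_mem hs hm) (inv_mem hs)
      rw [tt_xx, mul_inv_cancel_right] at this
      convert this using 1
      refine xx_congr ?_ ?_
      · simp only [Units.val_inv_eq_inv_val, Units.val_mk0, map_inv₀, c2]; field_simp
      · simp only [Units.val_inv_eq_inv_val, Units.val_mk0, map_inv₀, c2]; field_simp; norm_num
    refine ⟨_, ⟨mul_mem hh hr, Subgroup.mem_centralizer_singleton_iff.2 ?_⟩, k⁻¹, ?_⟩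
    · have e3 : u * h = h * (xx c d hd * u) := by rw [← e2]; group
      rw [← mul_assoc u, e3, mul_assoc h, mul_assoc h, mul_assoc (xx c d hd), hux,
        ← mul_assoc (xx c d hd), xx_mul]
      congr 2
      refine xx_congr (by field_simp; ring) ?_
      field_simp
      linear_combination (-4 : F) * hdd
    · rw [ac_mul, xx_e0, e1]
  · intro b hb0 hb
    obtain ⟨l, hl, h⟩ := hR2 b hb0 hb
    exact ⟨l, hT l hl, h⟩

end H18.Su
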