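import Cfsg.Agent.H18.Su4
import Cfsg.Agent.H18.U7a
import Cfsg.Agent.S0283

/-! Subgroups of small index in `SU₃(q)`: small fields and the main theorem. -/

set_option autoImplicit false

namespace H18.Su

open Matrix Cfsg H23 Module

attribute [-simp] H23.conj_apply

variable {F : Type*} [Field F] [Fintype F] {q : ℕ} {hF : Fintype.card F = q ^ 2}

/-- The natural representation. -/
def rho (hF : Fintype.card F = q ^ 2) : UU hF →* Module.End F (Fin 3 → F) where
  toFun A := Matrix.toLin' (mt A)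
  map_one' := by rw [mt_one, Matrix.toLin'_one]; rfl
  map_mul' A B := by rw [mt_mul, Matrix.toLin'_mul]; rfl

theorem rho_inj : Function.Injective (rho hF) := fun _ _ h => mt_ext (Matrix.toLin'.injective h)

section
variable {s : ℕ} (hs : s.Prime)
  (hmod : ∀ d ≤ 3, ∀ e ≤ 3, (q ^ 2) ^ d ≡ (q ^ 2) ^ e [MOD s] → d = e ∨ d = 3 ∧ e = 0 ∨ d = 0 ∧ e = 3)
include hs hmod

theorem fix_bot {x : UU hF} (hx : orderOf x = s) : LinearMap.ker (rho hF x - 1) = ⊥ := by
  have h1 : rho hF x ^ s = 1 := by rw [← map_pow, ← hx, pow_orderOf_eq_one, map_one]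
  have h := U7.fix_modEq _ s hs h1 ⊤ (fun _ _ => trivial)
  rw [top_inf_eq, finrank_top, hF, Module.finrank_fin_fun] at h
  have hle : finrank F (LinearMap.ker (rho hF x - 1)) ≤ 3 :=
    (Submodule.finrank_le _).trans (Module.finrank_fin_fun F).le
  rcases hmod 3 le_rfl _ hle h with h | h | h
  · exfalso
    have : LinearMap.ker (rho hF x - 1) = ⊤ := Submodule.eq_top_of_finrank_eq (by simp [← h])
    rw [LinearMap.ker_eq_top, sub_eq_zero, ← map_one (rho hF)] at this
    rw [rho_inj this, orderOf_one] at hx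
    exact hs.one_lt.ne hx
  · exact Submodule.finrank_eq_zero.1 h.2
  · omega

theorem irr {x : UU hF} (hx : orderOf x = s) (W : Submodule F (Fin 3 → F))
    (hW : ∀ w ∈ W, rho hF x w ∈ W) : W = ⊥ ∨ W = ⊤ := by
  have h1 : rho hF x ^ s = 1 := by rw [← map_pow, ← hx, pow_orderOf_eq_one, map_one]
  have h := U7.fix_modEq _ s hs h1 W hW
  rw [fix_bot hs hmod hx, inf_bot_eq, finrank_bot, hF] at h
  have hle : finrank F W ≤ 3 := by simpa using Submodule.finrank_le W
  rcases hmod _ hle 0 (by norm_num) h with h | h | h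
  · exact Or.inl (Submodule.finrank_eq_zero.1 h)
  · exact Or.inr (Submodule.eq_top_of_finrank_eq (by simp [h.1]))
  · omega

theorem no_inv (h2 : (2 : F) ≠ 0) {x w : UU hF} (hx : orderOf x = s) (hw : orderOf w = 2)
    (hn : w * x * w⁻¹ ∈ Subgroup.zpowers x) : False := by
  have hww : w * w = 1 := by rw [← sq, ← hw, pow_orderOf_eq_one]
  have hr : ∀ v, rho hF w (rho hF w v) = v := fun v => by
    rw [← Module.End.mul_apply, ← map_mul, hww, map_one]; rfl
  obtain ⟨ε, hε, hE⟩ : ∃ ε : F, ε * ε = 1 ∧ 2 ≤ finrank F (LinearMap.ker (rho hF w - ε • 1)) := by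
    have h1 := LinearMap.finrank_range_add_finrank_ker (rho hF w - (1 : F) • 1)
    have h3 : LinearMap.range (rho hF w - (1 : F) • 1) ≤ LinearMap.ker (rho hF w - (-1 : F) • 1) := by
      rintro _ ⟨v, rfl⟩
      simp [hr]
    have h4 := Submodule.finrank_mono h3
    rw [Module.finrank_fin_fun] at h1
    by_cases h : 2 ≤ finrank F (LinearMap.ker (rho hF w - (1 : F) • 1))
    · exact ⟨1, by simp, h⟩
    · exact ⟨-1, by simp, by omega⟩
  set E := LinearMap.ker (rho hF w - ε • 1) with hEd
  have hmem : ∀ v, v ∈ E ↔ rho hF w v = ε • v := fun v => by simp [hEd, sub_eq_zero]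
  set E' := E.map (rho hF x⁻¹) with hE'
  have hinj : Function.Injective (rho hF x⁻¹) := by
    intro a b h
    have := congrArg (rho hF x) h
    simpa [← Module.End.mul_apply, ← map_mul] using this
  have h5 : finrank F E' = finrank F E := (Submodule.equivMapOfInjective _ hinj E).finrank_eq.symm
  have h6 := Submodule.finrank_sup_add_finrank_inf_eq E E'
  have h7 : finrank F ↥(E ⊔ E') ≤ 3 := by simpa using Submodule.finrank_le (E ⊔ E')
  have h8 : E ⊓ E' ≠ ⊥ := by
    intro h
    rw [h, finrank_bot] at h6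
    omega
  obtain ⟨v, ⟨hv1, u, hu, rfl⟩, hv0⟩ := (Submodule.ne_bot_iff _).1 h8
  have hy : w * x⁻¹ * w * x ∈ Subgroup.zpowers x := by
    have : w * x⁻¹ * w = (w * x * w⁻¹)⁻¹ := by
      rw [inv_eq_of_mul_eq_one_right hww]; simp [mul_assoc, inv_eq_of_mul_eq_one_right hww]
    rw [this]
    exact mul_mem (inv_mem hn) (Subgroup.mem_zpowers x)
  have hfix : rho hF (w * x⁻¹ * w * x) (rho hF x⁻¹ u) = rho hF x⁻¹ u := by
    have e1 : rho hF x (rho hF x⁻¹ u) = u := by
      rw [← Module.End.mul_apply, ← map_mul, mul_inv_cancel, map_one]; rfl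
    simp only [map_mul, Module.End.mul_apply]
    rw [e1, (hmem u).1 hu, map_smul, map_smul, (hmem _).1 hv1, smul_smul, hε, one_smul]
  have hy1 : w * x⁻¹ * w * x = 1 := by
    by_contra hne
    have ho : orderOf (w * x⁻¹ * w * x) = s := by
      have : Fact s.Prime := ⟨hs⟩
      refine orderOf_eq_prime ?_ hne
      obtain ⟨k, hk⟩ := hy
      rw [← hk, ← zpow_natCast, ← _root_.zpow_mul, mul_comm, _root_.zpow_mul, zpow_natCast, ← hx,
        pow_orderOf_eq_one, _root_.one_zpow]
    have : rho hF x⁻¹ u ∈ LinearMap.ker (rho hF (w * x⁻¹ * w * x) - 1) := by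
      simp only [LinearMap.mem_ker, LinearMap.sub_apply, hfix]; simp
    rw [fix_bot hs hmod ho] at this
    exact hv0 this
  have hc : w * x = x * w := by
    calc w * x = x * w * (w * x⁻¹ * w * x) := by
          rw [show x * w * (w * x⁻¹ * w * x) = x * (w * w) * x⁻¹ * w * x by group, hww]; group
      _ = x * w := by rw [hy1, mul_one]
  rcases irr hs hmod hx E (fun v hv => by
    rw [hmem] at hv ⊢
    rw [← Module.End.mul_apply, ← map_mul, hc, map_mul, Module.End.mul_apply, hv, map_smul]) with h | h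
  · rw [h, finrank_bot] at hE
    omega
  · rw [hEd, LinearMap.ker_eq_top, sub_eq_zero] at h
    have hd : LinearMap.det (rho hF w) = 1 := by
      show LinearMap.det (Matrix.toLin' (mt w)) = 1
      rw [LinearMap.det_toLin', mt_det]
    rw [h, LinearMap.det_smul, Module.finrank_fin_fun, map_one, mul_one] at hd
    have : ε = 1 := by linear_combination hd - ε * hε
    rw [this, one_smul, ← map_one (rho hF)] at h
    rw [rho_inj h, orderOf_one] at hw
    omega

theorem odd_normalizer (h2 : (2 : F) ≠ 0) (H : Subgroup (UU hF)) [Fact s.Prime] (P : Sylow s H)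
    (hP : Nat.card P = s) : ¬ 2 ∣ Nat.card (Subgroup.normalizer ((P : Subgroup H) : Set H)) := by
  intro h
  obtain ⟨w, hw⟩ := exists_prime_orderOf_dvd_card' 2 h
  obtain ⟨x, hx⟩ := exists_prime_orderOf_dvd_card' (G := P) s (by rw [hP])
  have hx' : orderOf (x : H) = s := by rw [Subgroup.orderOf_coe, hx]
  have hz : Subgroup.zpowers (x : H) = P := by
    apply Subgroup.eq_of_le_of_card_ge (by rw [Subgroup.zpowers_le]; exact x.2)
    rw [Nat.card_zpowers, hx', hP]
  have hm : (w : H) * x * (w : H)⁻¹ ∈ (P : Subgroup H) := (Subgroup.mem_normalizer_iff.1 w.2 _).1 x.2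
  obtain ⟨k, hk⟩ := hz.ge hm
  refine no_inv hs hmod h2 (x := ((x : H) : UU hF)) (w := ((w : H) : UU hF))
    (by rw [Subgroup.orderOf_coe, hx']) (by rw [Subgroup.orderOf_coe, Subgroup.orderOf_coe, hw]) ⟨k, ?_⟩
  simpa using congrArg Subtype.val hk

end

theorem two_ne_of_odd (hF : Fintype.card F = q ^ 2) (hq : q % 2 = 1) : (2 : F) ≠ 0 := by
  intro h2
  have hc : CharP F 2 := CharTwo.of_one_ne_zero_of_two_eq_zero one_ne_zero h2
  have h5 := FiniteField.even_card_iff_char_two.1 (ringChar.eq F 2)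
  rw [hF, ← Nat.even_iff, Nat.even_pow, Nat.even_iff] at h5
  omega

theorem odd_of_two_ne (hF : Fintype.card F = q ^ 2) (h2 : (2 : F) ≠ 0) : q % 2 = 1 := by
  by_contra hq
  have h5 : ringChar F = 2 := FiniteField.even_card_iff_char_two.2 (by
    rw [hF, ← Nat.even_iff, Nat.even_pow, Nat.even_iff]; omega)
  apply h2
  have := ringChar.Nat.cast_ringChar (R := F)
  rw [h5] at this
  exact_mod_cast this

theorem not_three {hF : Fintype.card F = 3 ^ 2} (H : Subgroup (UU hF)) : H.index ≠ 3 ^ 3 := by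
  intro hi
  have : Fact (Nat.Prime 7) := ⟨by norm_num⟩
  have h1 := H.card_mul_index
  rw [hi, card_UU] at h1
  have hc : Nat.card H = 224 := by omega
  obtain ⟨P⟩ : Nonempty (Sylow 7 H) := inferInstance
  have hP : Nat.card P = 7 := by
    rw [P.card_eq_multiplicity, hc, show 224 = 7 * 32 by norm_num,
      Nat.factorization_mul (by norm_num) (by norm_num)]
    simp [Nat.Prime.factorization_self this.out, Nat.factorization_eq_zero_of_not_dvd]
  have h2 := odd_normalizer this.out (by decide) (two_ne_of_odd hF (by norm_num)) H P hP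
  have h3 := card_sylow_modEq_one 7 H
  rw [P.card_eq_index_normalizer] at h3
  have h4 := (Subgroup.normalizer ((P : Subgroup H) : Set H)).card_mul_index
  rw [hc] at h4
  have h5 : Nat.card (Subgroup.normalizer ((P : Subgroup H) : Set H)) ∣ 7 := by
    refine Nat.Coprime.dvd_of_dvd_mul_right (m := 7) (n := 2 ^ 5) ?_ ⟨_, h4.symm⟩
    exact Nat.Coprime.pow_right _ ((Nat.Prime.coprime_iff_not_dvd Nat.prime_two).2 h2).symm
  unfold Nat.ModEq at h3
  change (Subgroup.normalizer ((P : Subgroup H) : Set H)).index % 7 = _ at h3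
  rcases (Nat.dvd_prime this.out).1 h5 with h | h <;> rw [h] at h4 <;> omega

theorem not_eleven {hF : Fintype.card F = 11 ^ 2} (H : Subgroup (UU hF)) (hi : H.index = 484)
    (hT : Nat.card (TT H) = 30) (htt : ∀ l ∈ TT H, tt hF l ∈ H) : False := by
  have f37 : Fact (Nat.Prime 37) := ⟨by norm_num⟩
  have f11 : Fact (Nat.Prime 11) := ⟨by norm_num⟩
  have f3 : Fact (Nat.Prime 3) := ⟨by norm_num⟩
  have hmod : ∀ d ≤ 3, ∀ e ≤ 3, (11 ^ 2) ^ d ≡ (11 ^ 2) ^ e [MOD 37] →
    d = e ∨ d = 3 ∧ e = 0 ∨ d = 0 ∧ e = 3 := by decide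
  have h1 := H.card_mul_index
  rw [hi, card_UU] at h1
  have hc : Nat.card H = 439560 := by omega
  obtain ⟨P⟩ : Nonempty (Sylow 37 H) := inferInstance
  have hP : Nat.card P = 37 := by
    rw [P.card_eq_multiplicity, hc, show 439560 = 37 * 11880 by norm_num,
      Nat.factorization_mul (by norm_num) (by norm_num)]
    simp [Nat.Prime.factorization_self f37.out, Nat.factorization_eq_zero_of_not_dvd]
  have h2 := odd_normalizer f37.out hmod (two_ne_of_odd hF (by norm_num)) H P hP
  have h3 := card_sylow_modEq_one 37 H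
  rw [P.card_eq_index_normalizer] at h3
  change (Subgroup.normalizer ((P : Subgroup H) : Set H)).index ≡ _ [MOD 37] at h3
  set N := Subgroup.normalizer ((P : Subgroup H) : Set H) with hN
  have h4 := N.card_mul_index
  rw [hc] at h4
  obtain ⟨m, hm⟩ : 37 ∣ Nat.card N := hP ▸ Subgroup.card_dvd_of_le Subgroup.le_normalizer
  have h5 : m ∣ 1485 := by
    refine Nat.Coprime.dvd_of_dvd_mul_right (m := 1485) (n := 2 ^ 3) ?_ ⟨N.index, ?_⟩
    · refine Nat.Coprime.pow_right _ ((Nat.Prime.coprime_iff_not_dvd Nat.prime_two).2 ?_).symm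
      intro h; apply h2; rw [hm]; exact h.mul_left _
    · rw [hm, mul_assoc] at h4; omega
  have h6 : m = 3 := by
    have key : ∀ m ∈ Nat.divisors 1485, (11880 / m) % 37 = 1 → m = 3 := by decide +kernel
    refine key m (Nat.mem_divisors.2 ⟨h5, by norm_num⟩) ?_
    have hm0 : 0 < m := Nat.pos_of_dvd_of_pos h5 (by norm_num)
    have : 11880 / m = N.index := by
      rw [hm, mul_assoc] at h4
      exact Nat.div_eq_of_eq_mul_right hm0 (by omega)
    rw [this]; exact h3
  -- a central element of order three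
  obtain ⟨ω, hω⟩ := exists_prime_orderOf_dvd_card' (G := TT H) 3 (by rw [hT]; norm_num)
  have hω3 : (ω.1 : F) ^ 3 = 1 := by
    rw [← Units.val_pow_eq_pow_val, ← Subgroup.coe_pow, ← hω, pow_orderOf_eq_one]; rfl
  have hz : ∀ g : UU hF, g * tt hF ω = tt hF ω * g := by
    intro g
    apply mt_ext
    have e : mt (tt hF ω) = (ω.1 : F) • (1 : Matrix (Fin 3) (Fin 3) F) := by
      have hcω : conj hF ω.1 = (ω.1 : F) ^ 2 := by
        rw [conj_apply]; linear_combination ((ω.1 : F) ^ 8 + (ω.1 : F) ^ 5 + (ω.1 : F) ^ 2) * hω3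
      have := ω.1.ne_zero
      rw [mt_tt, hcω]
      ext i j; fin_cases i <;> fin_cases j <;> simp
      · field_simp
      · field_simp; exact hω3.symm
    rw [mt_mul, mt_mul, e]; simp
  have hCN : N ≤ Subgroup.centralizer ((P : Subgroup H) : Set H) := by
    have hle : Subgroup.centralizer ((P : Subgroup H) : Set H) ≤ N := Subgroup.centralizer_le_normalizer _
    refine (Subgroup.eq_of_le_of_card_ge hle ?_).ge
    have d1 : 37 ∣ Nat.card (Subgroup.centralizer ((P : Subgroup H) : Set H)) := by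
      refine hP.symm.dvd.trans ?_
      apply Subgroup.card_dvd_of_le
      have := isCyclic_of_prime_card hP
      intro a ha b hb
      exact congrArg Subtype.val (this.commutative.is_comm.comm (⟨b, hb⟩ : P) ⟨a, ha⟩)
    have d2 : 3 ∣ Nat.card (Subgroup.centralizer ((P : Subgroup H) : Set H)) := by
      have hm : (⟨tt hF ω, htt _ ω.2⟩ : H) ∈ Subgroup.centralizer ((P : Subgroup H) : Set H) :=
        fun b _ => Subtype.ext (hz _)
      have ho : orderOf (⟨tt hF ω, htt _ ω.2⟩ : H) = 3 := by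
        refine orderOf_eq_prime (Subtype.ext ?_) (fun h => ?_)
        · show tH hF ω ^ 3 = 1
          have e : ω ^ 3 = 1 := by rw [← hω, pow_orderOf_eq_one]
          rw [← map_pow, ← Subgroup.coe_pow, e]; simp
        · have := congrArg (fun g : H => mt g.1 0 0) h
          simp [mt_tt, mt_one] at this
          rw [this] at hω
          simp at hω
      exact ho.symm.dvd.trans (Subgroup.orderOf_dvd_natCard _ hm)
    rw [hm, h6]
    exact Nat.le_of_dvd Nat.card_pos (Nat.Coprime.mul_dvd_of_dvd_of_dvd (by norm_num) d1 d2)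
  have hK := MonoidHom.ker_transferSylow_isComplement' P hCN
  set K := (MonoidHom.transferSylow P hCN).ker with hKd
  have hKi : K.index = 37 := by rw [hK.symm.index_eq_card, hP]
  obtain ⟨Q⟩ : Nonempty (Sylow 11 H) := inferInstance
  have hQ : Nat.card Q = 11 := by
    rw [Q.card_eq_multiplicity, hc, show 439560 = 11 * 39960 by norm_num,
      Nat.factorization_mul (by norm_num) (by norm_num)]
    simp [Nat.Prime.factorization_self f11.out, Nat.factorization_eq_zero_of_not_dvd]
  have hQK : (Q : Subgroup H) ≤ K := by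
    intro y hy
    rw [← QuotientGroup.eq_one_iff, ← orderOf_eq_one_iff]
    have a1 : orderOf (y : H ⧸ K) ∣ 37 := (orderOf_dvd_natCard _).trans hKi.dvd
    have a2 : orderOf (y : H ⧸ K) ∣ 11 :=
      (orderOf_map_dvd (QuotientGroup.mk' K) y).trans ((Subgroup.orderOf_dvd_natCard _ hy).trans hQ.dvd)
    exact Nat.eq_one_of_dvd_coprimes (by norm_num) a1 a2
  have hFr := Sylow.normalizer_sup_eq_top' Q hQK
  have h7 : 37 ∣ Nat.card (Subgroup.normalizer ((Q : Subgroup H) : Set H)) := by
    have := Subgroup.relIndex_sup_right (Subgroup.normalizer ((Q : Subgroup H) : Set H)) K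
    erw [hFr] at this
    rw [Subgroup.relIndex_top_right, hKi] at this
    rw [this]
    exact Subgroup.index_dvd_card _
  obtain ⟨x, hx⟩ := exists_prime_orderOf_dvd_card' 37 h7
  have hxk : x ∈ (Q : Subgroup H).normalizerMonoidHom.ker := by
    rw [MonoidHom.mem_ker, ← orderOf_eq_one_iff]
    have := isCyclic_of_prime_card hQ
    have a1 : orderOf ((Q : Subgroup H).normalizerMonoidHom x) ∣ 37 := hx ▸ orderOf_map_dvd _ _
    have a2 := orderOf_dvd_natCard ((Q : Subgroup H).normalizerMonoidHom x)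
    rw [IsCyclic.card_mulAut, hQ] at a2
    exact Nat.eq_one_of_dvd_coprimes (by decide) a1 a2
  rw [Subgroup.normalizerMonoidHom_ker, Subgroup.mem_subgroupOf] at hxk
  obtain ⟨y, hy⟩ := exists_prime_orderOf_dvd_card' (G := Q) 11 (by rw [hQ])
  have hxy : (y : H).1 * (x : H).1 = (x : H).1 * (y : H).1 := congrArg Subtype.val (hxk _ y.2)
  have hy' : orderOf (y : H).1 = 11 := by rw [Subgroup.orderOf_coe, Subgroup.orderOf_coe, hy]
  have hx' : orderOf (x : H).1 = 37 := by rw [Subgroup.orderOf_coe, Subgroup.orderOf_coe, hx]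
  generalize (y : H).1 = b at hxy hy'
  generalize (x : H).1 = a at hxy hx'
  have hb : rho hF b ^ 11 = 1 := by
    rw [← map_pow, orderOf_dvd_iff_pow_eq_one.1 hy'.dvd, map_one]
  have h8 := U7.fix_modEq _ 11 f11.out hb ⊤ (fun _ _ => trivial)
  rcases irr f37.out hmod hx' (LinearMap.ker (rho hF b - 1)) (fun v hv => by
    simp only [LinearMap.mem_ker, LinearMap.sub_apply, Module.End.one_apply, sub_eq_zero] at hv ⊢
    rw [← Module.End.mul_apply, ← map_mul, hxy, map_mul, Module.End.mul_apply, hv]) with h | h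
  · rw [h, inf_bot_eq, finrank_bot, finrank_top, hF, Module.finrank_fin_fun] at h8
    revert h8; decide
  · rw [LinearMap.ker_eq_top, sub_eq_zero, ← map_one (rho hF)] at h
    rw [rho_inj h, orderOf_one] at hy'
    omega

theorem ratio_fix {b b0 : F} (hb00 : b0 ≠ 0) (hb0 : b0 + conj hF b0 = 0) (hb : b + conj hF b = 0) :
    conj hF (b / b0) = b / b0 := by
  have := conj_ne (hF := hF) hb00
  rw [map_div₀]; field_simp
  linear_combination b0 * hb - b * hb0

theorem boundA (hq4 : 4 ≤ q) {H : Subgroup (UU hF)} (hlt : H.index ≤ q ^ 3)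
    (hcore : ∀ N : Subgroup (UU hF), N.Normal → N ≤ H → N ≤ Subgroup.center _)
    (hy : ∀ l ∈ TT H, tt hF l ∈ H) (h2 : (2 : F) ≠ 0) (hT : TT H = ⊤) : q ≤ 5 := by
  obtain ⟨b0, hb00, hb0⟩ := exists_trace_zero_ne_zero hF
  rw [← conj_apply hF] at hb0
  have := odd_bound hq4 hlt hy hcore h2 {b0} (by simp [hb00, hb0]) (fun b hb1 hb => by
    obtain ⟨x, hx⟩ := exists_norm_eq hF (ratio_fix hb00 hb0 hb)
    have hx0 : x ≠ 0 := by
      rintro rfl
      exact div_ne_zero hb1 hb00 (by simpa using hx.symm)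
    refine ⟨Units.mk0 x hx0, by rw [hT]; trivial, b0, by simp, ?_⟩
    rw [Units.val_mk0, conj_apply, ← pow_succ', hx]; field_simp)
  simpa using this

theorem boundB (hq4 : 4 ≤ q) {H : Subgroup (UU hF)} (hlt : H.index ≤ q ^ 3)
    (hcore : ∀ N : Subgroup (UU hF), N.Normal → N ≤ H → N ≤ Subgroup.center _)
    (hy : ∀ l ∈ TT H, tt hF l ∈ H) (h2 : (2 : F) ≠ 0) : q ≤ 11 := by
  classical
  obtain ⟨b0, hb00, hb0⟩ := exists_trace_zero_ne_zero hF
  rw [← conj_apply hF] at hb0
  obtain ⟨⟨g, hg⟩, hgen⟩ := IsCyclic.exists_generator (α := (powMonoidHom (q - 1) : Fˣ →* Fˣ).ker)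
  have hfix : ∀ l : Fˣ, l ∈ (powMonoidHom (q - 1) : Fˣ →* Fˣ).ker ↔ conj hF l = l := by
    intro l
    rw [MonoidHom.mem_ker, powMonoidHom_apply, conj_apply, ← Units.val_inj, Units.val_pow_eq_pow_val,
      Units.val_one]
    have e : (l : F) ^ q = l ^ (q - 1) * l := by rw [← pow_succ]; congr 1; omega
    rw [e, mul_eq_right₀ l.ne_zero]
  have hg' := (hfix g).1 hg
  have hR2 : ∀ b : F, b ≠ 0 → b + conj hF b = 0 → ∃ l ∈ TT H, ∃ r ∈ ({b0, g * b0} : Finset F),
      b = l * conj hF l * r := by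
    intro b hb1 hb
    obtain ⟨k, hk⟩ := hgen ⟨Units.mk0 (b / b0) (div_ne_zero hb1 hb00), (hfix _).2 (ratio_fix hb00 hb0 hb)⟩
    have hk1 : g ^ k = Units.mk0 (b / b0) (div_ne_zero hb1 hb00) := congrArg Subtype.val hk
    have hk' : (g : F) ^ k = b / b0 := by
      rw [← Units.val_zpow_eq_zpow_val, hk1]; rfl
    have hm : ∀ j : ℤ, conj hF (g ^ j : Fˣ) = (g ^ j : Fˣ) := fun j => (hfix _).1 (zpow_mem hg j)
    have := g.ne_zero
    rcases Int.even_or_odd' k with ⟨j, rfl | rfl⟩
    · refine ⟨g ^ j, fix_mem hlt (hm j), b0, by simp, ?_⟩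
      rw [hm, Units.val_zpow_eq_zpow_val, ← zpow_add₀ this, ← two_mul, hk']; field_simp
    · refine ⟨g ^ j, fix_mem hlt (hm j), g * b0, by simp, ?_⟩
      rw [hm, Units.val_zpow_eq_zpow_val, ← zpow_add₀ this, ← two_mul, ← mul_assoc,
        ← zpow_add_one₀ this, hk']; field_simp
  have := odd_bound hq4 hlt hy hcore h2 {b0, g * b0} (by
    intro r hr
    simp only [Finset.mem_insert, Finset.mem_singleton] at hr
    rcases hr with rfl | rfl
    · exact ⟨hb00, hb0⟩
    · exact ⟨mul_ne_zero g.ne_zero hb00, by rw [map_mul, hg']; linear_combination g * hb0⟩) hR2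
  have h4 : ({b0, g * b0} : Finset F).card ≤ 2 := Finset.card_le_two
  have h5 : ({b0, g * b0} : Finset F).card ^ 2 ≤ 2 ^ 2 := Nat.pow_le_pow_left h4 2
  omega

theorem main_norm (hq4 : 4 ≤ q) {H : Subgroup (UU hF)} (hlt : H.index ≤ q ^ 3)
    (hcore : ∀ N : Subgroup (UU hF), N.Normal → N ≤ H → N ≤ Subgroup.center _)
    (hy : ∀ l ∈ TT H, tt hF l ∈ H) : q = 5 ∧ (H.index = 125 ∨ H.index = 50) := by
  rcases cases_index hlt hcore with ⟨h, hT, h0⟩ | ⟨h, hT, h2⟩
  · by_cases h2 : (2 : F) = 0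
    · exact (even_false hlt hy hq4 hcore h h0 h2).elim
    have := boundA hq4 hlt hcore hy h2 hT
    have ho := odd_of_two_ne hF h2
    have h5 : q = 5 := by omega
    exact ⟨h5, Or.inl (by rw [h, h5]; rfl)⟩
  · have := boundB hq4 hlt hcore hy h2
    have ho := odd_of_two_ne hF h2
    have d := Subgroup.card_subgroup_dvd_card (TT H)
    rw [hT, card_units_eq hF] at d
    have d' := Nat.dvd_of_mul_dvd_mul_right (by omega) d
    have h5 : q = 5 ∨ q = 11 := by omega
    rcases h5 with h5 | h5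
    · refine ⟨h5, Or.inr ?_⟩
      generalize H.index = n at h
      subst h5
      omega
    · subst h5
      exact (not_eleven H (by omega) hT hy).elim

theorem main_three (h3 : q = 3) {H : Subgroup (UU hF)} (hlt : H.index ≤ q ^ 3)
    (hcore : ∀ N : Subgroup (UU hF), N.Normal → N ≤ H → N ≤ Subgroup.center _) : False := by
  rcases cases_index hlt hcore with ⟨h, -⟩ | ⟨-, h', -⟩
  · subst h3
    exact not_three H h
  · have := Subgroup.card_subgroup_dvd_card (TT H)
    rw [h', card_units_eq hF, h3] at this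
    norm_num at this

theorem core_conj {G : Type*} [Group G] {H : Subgroup G} (y : G)
    (hcore : ∀ N : Subgroup G, N.Normal → N ≤ H → N ≤ Subgroup.center _) :
    ∀ N : Subgroup G, N.Normal → N ≤ H.map (MulAut.conj y).toMonoidHom → N ≤ Subgroup.center _ := by
  refine fun N hN hle => hcore N hN fun n hn => ?_
  obtain ⟨h, hh, e⟩ := hle (hN.conj_mem n hn y)
  have : h = n := (MulAut.conj y).injective e
  exact this ▸ hh

theorem index_conj {G : Type*} [Group G] (H : Subgroup G) (y : G) :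
    (H.map (MulAut.conj y).toMonoidHom).index = H.index :=
  Subgroup.index_map_of_bijective (MulAut.conj y).bijective H

theorem main_UU (hq : 3 ≤ q) {H : Subgroup (UU hF)} (hlt : H.index ≤ q ^ 3)
    (hcore : ∀ N : Subgroup (UU hF), N.Normal → N ≤ H → N ≤ Subgroup.center _) :
    q = 5 ∧ (H.index = 125 ∨ H.index = 50) := by
  by_cases h3 : q = 3
  · exact (main_three h3 hlt hcore).elim
  have hq4 : 4 ≤ q := by omega
  obtain ⟨y, hy⟩ := exists_norm hq4 hlt
  have := main_norm hq4 ((index_conj H y).trans_le hlt) (core_conj y hcore) hy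
  rwa [index_conj] at this

theorem exists_hom (hF : Fintype.card F = q ^ 2) :
    ∃ f : UU hF →* PSU 3 F q, Function.Surjective f ∧ f.ker = Subgroup.center _ := by
  obtain ⟨e⟩ := exists_equiv hF
  refine ⟨(QuotientGroup.mk' _).comp e.toMonoidHom,
    (QuotientGroup.mk'_surjective _).comp e.surjective, ?_⟩
  ext g
  simp only [MonoidHom.mem_ker, MonoidHom.comp_apply, QuotientGroup.mk'_apply,
    QuotientGroup.eq_one_iff, Subgroup.mem_center_iff]
  constructor
  · intro h a
    apply e.injective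
    rw [map_mul, map_mul]; exact h _
  · intro h a
    obtain ⟨a, rfl⟩ := e.surjective a
    simpa using congrArg e (h a)

theorem main_PSU (hF : Fintype.card F = q ^ 2) (hq : 3 ≤ q) (H : Subgroup (PSU 3 F q)) (hH : H ≠ ⊤)
    (hlt : H.index ≤ q ^ 3) : q = 5 ∧ (H.index = 125 ∨ H.index = 50) := by
  obtain ⟨f, hf, hk⟩ := exists_hom hF
  have := Cfsg.Agent.S0283.result hF 3 le_rfl (by omega)
  rw [← H.index_comap_of_surjective hf] at hlt ⊢
  refine main_UU hq hlt fun N hN hle => ?_
  rcases (hN.map f hf).eq_bot_or_eq_top with h | h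
  · rw [← hk]; exact (Subgroup.map_eq_bot_iff _).1 h
  · exact absurd (top_le_iff.1 (h ▸ Subgroup.map_le_iff_le_comap.2 hle)) hH

theorem exists_borel (hF : Fintype.card F = q ^ 2) :
    ∃ H : Subgroup (PSU 3 F q), H.index = q ^ 3 + 1 := by
  obtain ⟨f, hf, hk⟩ := exists_hom hF
  refine ⟨(BB hF).map f, ?_⟩
  rw [← Subgroup.index_comap_of_surjective _ hf, Subgroup.comap_map_eq, hk, sup_eq_left.2, index_BB]
  intro z hz
  have hq := two_le_of_card_eq_sq hF
  obtain ⟨b, hb0, hb⟩ := exists_trace_zero_ne_zero hF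
  rw [← conj_apply hF] at hb
  have h1 := Subgroup.mem_center_iff.1 hz (xx 0 b (by simpa using hb))
  have h2 := congrArg (fun g => ac g e0 0) h1
  simp only [ac_mul, xx_e0] at h2
  rw [ac_xx] at h2
  simp [hb0] at h2
  have hiso : hJ hF (ac z e0) (ac z e0) = 0 := by rw [ac_hJ]; simp [hJ, e0]
  have h3 : ac z e0 1 = 0 := by simpa [hJ, h2] using hiso
  exact ⟨ac z e0 0, by ext i; fin_cases i <;> simp [h2, h3] <;> simp [e0]⟩

end H18.Su
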